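import Mathlib
import Cfsg.Agent.Lib.Helper96.HallSymStmt

/-!
# S2536, piece BLK1: a transitive group with a block system
-/

set_option autoImplicit false

namespace Cfsg.Agent.Lib.Helper10.HSBLK1

open Equiv Cfsg.Agent.Lib.Helper96.HallSymStmt

section

variable {Ω ι : Type} (H : Subgroup (Perm Ω)) (f : Ω → ι)

theorem ais (g : Perm Ω) (x : Ω) : g (g⁻¹ x) = x := g.apply_symm_apply x

theorem ias (g : Perm Ω) (x : Ω) : g⁻¹ (g x) = x := g.symm_apply_apply x

/-- the kernel of the action on the blocks -/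
def Hf : Subgroup (Perm Ω) where
  carrier := {h | h ∈ H ∧ ∀ x, f (h x) = f x}
  one_mem' := ⟨H.one_mem, fun _ => rfl⟩
  mul_mem' := by
    rintro a b ⟨ha, ha'⟩ ⟨hb, hb'⟩
    exact ⟨H.mul_mem ha hb, fun x => by rw [Perm.mul_apply, ha', hb']⟩
  inv_mem' := by
    rintro a ⟨ha, ha'⟩
    refine ⟨H.inv_mem ha, fun x => ?_⟩
    have := ha' (a⁻¹ x)
    rw [ais] at this
    exact this.symm

theorem Hf_le : Hf H f ≤ H := fun _ h => h.1

/-- the pointwise stabilizer of the fibre over `i` in `Hf` -/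
def K (i : ι) : Subgroup (Perm Ω) where
  carrier := {h | h ∈ Hf H f ∧ ∀ x, f x = i → h x = x}
  one_mem' := ⟨(Hf H f).one_mem, fun _ _ => rfl⟩
  mul_mem' := by
    rintro a b ⟨ha, ha'⟩ ⟨hb, hb'⟩
    exact ⟨(Hf H f).mul_mem ha hb, fun x hx => by rw [Perm.mul_apply, hb' x hx, ha' x hx]⟩
  inv_mem' := by
    rintro a ⟨ha, ha'⟩
    refine ⟨(Hf H f).inv_mem ha, fun x hx => ?_⟩
    rw [Perm.inv_eq_iff_eq]
    exact (ha' x hx).symm

theorem K_le (i : ι) : K H f i ≤ Hf H f := fun _ h => h.1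

/-- restriction to the fibre over `i` -/
def rho (i : ι) : ↥(Hf H f) →* Perm ↥(f ⁻¹' {i}) where
  toFun k := Perm.subtypePerm (p := fun x => x ∈ f ⁻¹' {i}) (k : Perm Ω) (fun x => by
    show f ((k : Perm Ω) x) = i ↔ f x = i
    rw [k.2.2 x])
  map_one' := by ext x; rfl
  map_mul' := by intro a b; ext x; rfl

theorem rho_apply (i : ι) (k : ↥(Hf H f)) (x : ↥(f ⁻¹' {i})) :
    ((rho H f i k x : ↥(f ⁻¹' {i})) : Ω) = (k : Perm Ω) (x : Ω) := rfl

theorem ker_rho (i : ι) : (rho H f i).ker = (K H f i).subgroupOf (Hf H f) := by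
  ext k
  rw [MonoidHom.mem_ker, Subgroup.mem_subgroupOf]
  constructor
  · intro hk
    refine ⟨k.2, fun x hx => ?_⟩
    have := congrArg (fun σ : Perm ↥(f ⁻¹' {i}) => ((σ ⟨x, hx⟩ : ↥(f ⁻¹' {i})) : Ω)) hk
    exact this
  · intro hk
    ext x
    exact hk.2 x.1 x.2

theorem card_range_mul (i : ι) :
    Nat.card (rho H f i).range * Nat.card (K H f i) = Nat.card (Hf H f) := by
  have h1 := Subgroup.card_mul_index (rho H f i).ker
  rw [Subgroup.index_ker, ker_rho] at h1
  rw [← h1, mul_comm]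
  congr 1
  exact (Nat.card_congr (Subgroup.subgroupOfEquivOfLe (K_le H f i)).toEquiv).symm

variable {H f}

theorem conj_mem (hpres : ∀ h ∈ H, ∀ x y : Ω, f x = f y → f (h x) = f (h y)) {g : Perm Ω}
    (hg : g ∈ H) {i j : ι} (x₁ : Ω) (hi : f x₁ = i) (hj : f (g x₁) = j) {k : Perm Ω}
    (hk : k ∈ K H f i) : g * k * g⁻¹ ∈ K H f j := by
  obtain ⟨⟨hkH, hkf⟩, hkfix⟩ := hk
  have hz : ∀ x, f x = j → f (g⁻¹ x) = i := by
    intro x hx
    have := hpres g⁻¹ (H.inv_mem hg) x (g x₁) (by rw [hx, hj])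
    rw [this, ias, hi]
  refine ⟨⟨H.mul_mem (H.mul_mem hg hkH) (H.inv_mem hg), fun x => ?_⟩, fun x hx => ?_⟩
  · simp only [Perm.mul_apply]
    have := hpres g hg (k (g⁻¹ x)) (g⁻¹ x) (hkf _)
    rw [this, ais]
  · simp only [Perm.mul_apply]
    rw [hkfix _ (hz x hx), ais]

theorem card_K_dvd (hpres : ∀ h ∈ H, ∀ x y : Ω, f x = f y → f (h x) = f (h y)) {g : Perm Ω}
    (hg : g ∈ H) {i j : ι} (x₁ : Ω) (hi : f x₁ = i) (hj : f (g x₁) = j) :
    Nat.card (K H f i) ∣ Nat.card (K H f j) := by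
  have hle : (K H f i).map (MulAut.conj g).toMonoidHom ≤ K H f j := by
    rintro _ ⟨k, hk, rfl⟩
    exact conj_mem hpres hg x₁ hi hj hk
  have hcard : Nat.card ((K H f i).map (MulAut.conj g).toMonoidHom) = Nat.card (K H f i) :=
    Subgroup.card_map_of_injective (MulAut.conj g).injective
  rw [← hcard]
  exact Subgroup.card_dvd_of_le hle

theorem card_K_eq (htr : Trans H) (hf : Function.Surjective f)
    (hpres : ∀ h ∈ H, ∀ x y : Ω, f x = f y → f (h x) = f (h y)) (i j : ι) :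
    Nat.card (K H f i) = Nat.card (K H f j) := by
  obtain ⟨x, rfl⟩ := hf i
  obtain ⟨y, rfl⟩ := hf j
  obtain ⟨g, hg, rfl⟩ := htr x y
  apply Nat.dvd_antisymm
  · exact card_K_dvd hpres hg x rfl rfl
  · exact card_K_dvd hpres (H.inv_mem hg) (g x) rfl (by rw [ias])

theorem card_Hf_dvd [Fintype ι] [Finite Ω] :
    Nat.card (Hf H f) ∣ ∏ i : ι, Nat.card (rho H f i).range := by
  rw [← Nat.card_pi]
  let ψ : ↥(Hf H f) →* (∀ i : ι, ↥(rho H f i).range) :=
    MonoidHom.pi (fun i => (rho H f i).rangeRestrict)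
  apply Subgroup.card_dvd_of_injective ψ
  intro k k' hkk
  apply Subtype.ext
  ext x
  have h1 := congrFun hkk (f x)
  have h2 := congrArg (fun r : ↥(rho H f (f x)).range =>
    (((r : Perm ↥(f ⁻¹' {f x})) ⟨x, rfl⟩ : ↥(f ⁻¹' {f x})) : Ω)) h1
  exact h2

/-- the action on the blocks -/
noncomputable def phi0 (hf : Function.Surjective f)
    (hpres : ∀ h ∈ H, ∀ x y : Ω, f x = f y → f (h x) = f (h y)) : ↥H →* Function.End ι where
  toFun h := fun i => f ((h : Perm Ω) (Function.surjInv hf i))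
  map_one' := by funext i; exact Function.surjInv_eq hf i
  map_mul' := by
    intro a b
    funext i
    show f (((a : Perm Ω) * (b : Perm Ω)) (Function.surjInv hf i)) =
      f ((a : Perm Ω) (Function.surjInv hf (f ((b : Perm Ω) (Function.surjInv hf i)))))
    exact hpres a.1 a.2 _ _ (Function.surjInv_eq hf _).symm

theorem ker_phi (hf : Function.Surjective f)
    (hpres : ∀ h ∈ H, ∀ x y : Ω, f x = f y → f (h x) = f (h y)) :
    (MonoidHom.toHomPerm (phi0 hf hpres)).ker = (Hf H f).subgroupOf H := by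
  ext h
  rw [MonoidHom.mem_ker, Subgroup.mem_subgroupOf]
  constructor
  · intro hh
    refine ⟨h.2, fun x => ?_⟩
    have h1 := congrArg (fun σ : Perm ι => σ (f x)) hh
    have h2 : f ((h : Perm Ω) (Function.surjInv hf (f x))) = f x := h1
    rw [← h2]
    exact hpres h.1 h.2 _ _ (Function.surjInv_eq hf _).symm
  · intro hh
    ext i
    show f ((h : Perm Ω) (Function.surjInv hf i)) = i
    rw [hh.2, Function.surjInv_eq hf]

theorem card_H_eq [Fintype ι] (hf : Function.Surjective f)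
    (hpres : ∀ h ∈ H, ∀ x y : Ω, f x = f y → f (h x) = f (h y)) :
    Nat.card H = Nat.card (Hf H f) * Nat.card (MonoidHom.toHomPerm (phi0 hf hpres)).range := by
  have h1 := Subgroup.card_mul_index (MonoidHom.toHomPerm (phi0 hf hpres)).ker
  rw [Subgroup.index_ker, ker_phi] at h1
  rw [← h1]
  congr 1
  exact (Nat.card_congr (Subgroup.subgroupOfEquivOfLe (Hf_le H f)).toEquiv)


end

theorem main : BLK1 := by
  intro Ω _ _ H htr hpos ι _ f a hf hfib hpres
  classical
  obtain ⟨x₀⟩ : Nonempty Ω := Fintype.card_pos_iff.mp hpos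
  refine ⟨↥(f ⁻¹' {f x₀}), Fintype.ofFinite _, Classical.decEq _, (rho H f (f x₀)).range,
    ?_, ?_, ?_⟩
  · rw [← hfib (f x₀), ← Nat.card_coe_set_eq]
    exact (@Nat.card_eq_fintype_card _ (Fintype.ofFinite _)).symm
  · exact (Subgroup.card_range_dvd (rho H f (f x₀))).trans (Subgroup.card_dvd_of_le (Hf_le H f))
  · have h1 := card_H_eq (H := H) hf hpres
    have h2 : Nat.card (MonoidHom.toHomPerm (phi0 hf hpres)).range ∣
        (Fintype.card ι).factorial := by
      have := Subgroup.card_subgroup_dvd_card (MonoidHom.toHomPerm (phi0 hf hpres)).range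
      rwa [Nat.card_perm, Nat.card_eq_fintype_card (α := ι)] at this
    have h3 : Nat.card (Hf H f) ∣ ∏ i : ι, Nat.card (rho H f i).range := card_Hf_dvd
    have h4 : ∀ i, Nat.card (rho H f i).range = Nat.card (rho H f (f x₀)).range := by
      intro i
      have e1 := card_range_mul H f i
      have e2 := card_range_mul H f (f x₀)
      have e3 := card_K_eq htr hf hpres i (f x₀)
      have hpos' : 0 < Nat.card (K H f (f x₀)) := Nat.card_pos
      rw [e3] at e1
      exact Nat.eq_of_mul_eq_mul_right hpos' (e1.trans e2.symm)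
    rw [Finset.prod_congr rfl (fun i _ => h4 i), Finset.prod_const, Finset.card_univ] at h3
    rw [h1]
    exact Nat.mul_dvd_mul h3 h2

end Cfsg.Agent.Lib.Helper10.HSBLK1
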