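import Mathlib
import Cfsg.Agent.Lib.Helper96.HallSymStmt

/-!
# S2536, piece CI: the intransitive case of Hall subgroups of symmetric groups
-/

set_option autoImplicit false

namespace Cfsg.Agent.Lib.Helper10.HSCI

open Equiv Cfsg.Agent.Lib.Helper96.HallSymStmt

variable {Ω : Type}

theorem mem_orb_self (H : Subgroup (Perm Ω)) (x : Ω) : x ∈ Orb H x := ⟨1, H.one_mem, rfl⟩

theorem invS_orb (H : Subgroup (Perm Ω)) (x : Ω) : InvS H (Orb H x) := by
  rintro h hh y ⟨g, hg, rfl⟩
  exact ⟨h * g, H.mul_mem hh hg, rfl⟩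

theorem invS_union {H : Subgroup (Perm Ω)} {S T : Set Ω} (hS : InvS H S) (hT : InvS H T) :
    InvS H (S ∪ T) := by
  rintro h hh x (hx | hx)
  · exact Or.inl (hS h hh x hx)
  · exact Or.inr (hT h hh x hx)

theorem disjoint_orb {H : Subgroup (Perm Ω)} {S : Set Ω} (hS : InvS H S) {z : Ω} (hz : z ∉ S) :
    Disjoint S (Orb H z) := by
  rw [Set.disjoint_left]
  rintro w hw ⟨h, hh, rfl⟩
  apply hz
  have := hS h⁻¹ (H.inv_mem hh) _ hw
  simpa using this

theorem key [Fintype Ω] [DecidableEq Ω] (hSSC : SSC) {π : Set ℕ} {H : Subgroup (Perm Ω)}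
    (hH : Cfsg.IsPiHall π H) {S T : Set Ω} (hS : InvS H S) (hT : InvS H T) (hd : Disjoint S T)
    (p : ℕ) (hp : p.Prime) (hpπ : p ∈ π) :
    ¬ p ∣ Nat.choose (S.ncard + T.ncard) T.ncard := by
  have h := hSSC Ω π H hH (S ∪ T) T (invS_union hS hT) hT Set.subset_union_right p hp hpπ
  rwa [Set.ncard_union_eq hd (Set.toFinite S) (Set.toFinite T)] at h

theorem core (hECK : ECK) (hSSA : SSA) (hSSB : SSB) (hSSC : SSC) (hHCAU : HCAU) (hTR : TR)
    (n : ℕ) (ih : ∀ m : ℕ, m < n → Fwd m) [Fintype Ω] [DecidableEq Ω]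
    (hcard : Fintype.card Ω = n) (π : Set ℕ) (h2 : TwoP n π) (H : Subgroup (Perm Ω))
    (hH : Cfsg.IsPiHall π H) (hntr : ¬ Trans H) (x₀ : Ω) (m : ℕ)
    (hm : (Orb H x₀).ncard = m) (hmax : ∀ x, (Orb H x).ncard ≤ m) : Concl n π := by
  classical
  have hΔinv : InvS H (Orb H x₀) := invS_orb H x₀
  have hex : ∃ y, y ∉ Orb H x₀ := by
    by_contra hall
    push Not at hall
    apply hntr
    intro x y
    obtain ⟨g, hg, hgx⟩ := hall x
    obtain ⟨h, hh, hhy⟩ := hall y
    refine ⟨h * g⁻¹, H.mul_mem hh (H.inv_mem hg), ?_⟩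
    rw [← hgx, ← hhy]
    simp
  have hcardn : Nat.card Ω = n := by rw [Nat.card_eq_fintype_card, hcard]
  have horb : ∀ (S : Set Ω), InvS H S → ∀ z, z ∉ S →
      1 ≤ (Orb H z).ncard ∧ (Orb H z).ncard ≤ m ∧ S.ncard + (Orb H z).ncard ≤ n ∧
      ∀ p : ℕ, p.Prime → p ∈ π →
        ¬ p ∣ Nat.choose (S.ncard + (Orb H z).ncard) (Orb H z).ncard := by
    intro S hS z hz
    have hd := disjoint_orb hS hz
    refine ⟨?_, hmax z, ?_, key hSSC hH hS (invS_orb H z) hd⟩
    · exact Nat.succ_le_of_lt ((Set.ncard_pos (Set.toFinite _)).mpr ⟨z, mem_orb_self H z⟩)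
    · rw [← Set.ncard_union_eq hd (Set.toFinite _) (Set.toFinite _), ← hcardn]
      exact Set.ncard_le_card _
  obtain ⟨y₀, hy₀⟩ := hex
  obtain ⟨hy1, hy2, hy3, hy4⟩ := horb _ hΔinv y₀ hy₀
  rw [hm] at hy3 hy4
  have hmn : m < n := by omega
  have h1 : ∀ p : ℕ, p.Prime → p ∈ π → p ≤ n → p ≤ m := by
    intro p hp hpπ hpn
    obtain ⟨x, hx⟩ := hHCAU Ω π H hH p hp hpπ (hcard ▸ hpn)
    exact hx.trans (hmax x)
  have h2m : TwoP m π := by
    obtain ⟨r, s, hr, hs, hrs, hrπ, hsπ, hrn, hsn⟩ := h2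
    exact ⟨r, s, hr, hs, hrs, hrπ, hsπ, h1 r hr hrπ hrn, h1 s hs hsπ hsn⟩
  have hm3 : 3 ≤ m := by
    obtain ⟨r, s, hr, hs, hrs, -, -, hrm, hsm⟩ := h2m
    have := hr.two_le
    have := hs.two_le
    omega
  obtain ⟨H', hH', hc1, -⟩ := hSSB Ω π H hH _ hΔinv
  have htr' : Trans H' := by
    rintro ⟨x, g, hg, rfl⟩ ⟨y, h, hh, rfl⟩
    obtain ⟨h', hh', hc⟩ := hc1 (h * g⁻¹) (H.mul_mem hh (H.inv_mem hg))
    refine ⟨h', hh', Subtype.ext ?_⟩
    rw [hc]
    simp
  have hcardΔ : @Fintype.card ↥(Orb H x₀) (Fintype.ofFinite _) = m := by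
    rw [← hm, ← Nat.card_coe_set_eq]
    exact (@Nat.card_eq_fintype_card _ (Fintype.ofFinite _)).symm
  have hTRm := @hTR m (ih m hmn) ↥(Orb H x₀) (Fintype.ofFinite _) (Classical.decEq _) hcardΔ π H'
    hH' htr' h2m
  rcases hTRm with hall | ⟨hm8, hπ8⟩
  · by_cases hbig : ∃ y, y ∉ Orb H x₀ ∧ 2 ≤ (Orb H y).ncard
    · obtain ⟨y, hy, hy2'⟩ := hbig
      obtain ⟨-, hyle, hysum, hyp⟩ := horb _ hΔinv y hy
      rw [hm] at hysum hyp
      have hns : NoSmall (Orb H y).ncard m := by
        intro q hq hqm hdvd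
        rw [add_comm] at hdvd
        exact hyp q hq (hall q hq hqm) hdvd
      obtain ⟨hO3, hm4⟩ := hECK _ m hy2' hyle hns
      have hSinv : InvS H (Orb H x₀ ∪ Orb H y) := invS_union hΔinv (invS_orb H y)
      have hScard : (Orb H x₀ ∪ Orb H y).ncard = 7 := by
        rw [Set.ncard_union_eq (disjoint_orb hΔinv hy) (Set.toFinite _) (Set.toFinite _), hm, hO3,
          hm4]
      have hSuniv : ∀ z, z ∈ Orb H x₀ ∪ Orb H y := by
        by_contra hz
        push Not at hz
        obtain ⟨z, hz⟩ := hz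
        obtain ⟨hz1, hz2, -, hz4⟩ := horb _ hSinv z hz
        have h2π : 2 ∈ π := hall 2 Nat.prime_two (by omega)
        have hz5 := hz4 2 Nat.prime_two h2π
        rw [hScard] at hz5
        rw [hm4] at hz2
        generalize (Orb H z).ncard = m₃ at hz1 hz2 hz5
        interval_cases m₃ <;> revert hz5 <;> decide
      have hn7 : n = 7 := by
        rw [← hcardn, ← Set.ncard_univ, ← hScard]
        congr 1
        exact (Set.eq_univ_of_forall hSuniv).symm
      right
      refine ⟨Or.inl hn7, ?_⟩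
      intro r hr hrn
      constructor
      · intro hrπ
        have hr4 := h1 r hr hrπ hrn
        rw [hm4] at hr4
        have hr2 := hr.two_le
        interval_cases r
        · left; rfl
        · right; rfl
        · exact absurd hr (by decide)
      · rintro (rfl | rfl)
        · exact hall 2 Nat.prime_two (by omega)
        · exact hall 3 Nat.prime_three (by omega)
    · push Not at hbig
      have hfix : ∀ y, y ∉ Orb H x₀ → Orb H y = {y} := by
        intro y hy
        have h1' := (horb _ hΔinv y hy).1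
        have h2' := hbig y hy
        have hone : (Orb H y).ncard = 1 := by omega
        obtain ⟨a, ha⟩ := Set.ncard_eq_one.mp hone
        have hya : y ∈ ({a} : Set Ω) := ha ▸ mem_orb_self H y
        rw [ha, Set.mem_singleton_iff.mp hya]
      have huniq : ∀ y₁ y₂, y₁ ∉ Orb H x₀ → y₂ ∉ Orb H x₀ → y₁ = y₂ := by
        intro y₁ y₂ hy₁ hy₂
        by_contra hne
        have hT : InvS H ({y₁, y₂} : Set Ω) := by
          have hu := invS_union (invS_orb H y₁) (invS_orb H y₂)
          rw [hfix y₁ hy₁, hfix y₂ hy₂] at hu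
          exact hu
        have hd : Disjoint (Orb H x₀) ({y₁, y₂} : Set Ω) := by
          rw [Set.disjoint_left]
          rintro w hw (rfl | rfl)
          · exact hy₁ hw
          · exact hy₂ hw
        have hk := key hSSC hH hΔinv hT hd
        rw [Set.ncard_pair hne, hm] at hk
        have hns : NoSmall 2 m := by
          intro q hq hqm hdvd
          rw [add_comm] at hdvd
          exact hk q hq (hall q hq hqm) hdvd
        have := hECK 2 m le_rfl (by omega) hns
        omega
      have hn : n = m + 1 := by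
        have hcompl : (Orb H x₀)ᶜ = {y₀} := by
          ext w
          simp only [Set.mem_compl_iff, Set.mem_singleton_iff]
          exact ⟨fun hw => huniq w y₀ hw hy₀, fun hw => hw ▸ hy₀⟩
        have hsum := Set.ncard_add_ncard_compl (Orb H x₀)
        rw [hcompl, Set.ncard_singleton, hm, hcardn] at hsum
        omega
      have hSSAΔ := hSSA Ω π H hH (Orb H x₀) hΔinv
      rw [hm, hcard, hn, Nat.choose_succ_self_right] at hSSAΔ
      have hnprime : n.Prime := by
        by_contra hnp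
        have hq := Nat.minFac_prime (by omega : n ≠ 1)
        have hqd := Nat.minFac_dvd n
        have hqle := Nat.minFac_le (by omega : 0 < n)
        have hqne : n.minFac ≠ n := by
          intro heq
          exact hnp (heq ▸ hq)
        have hqm : n.minFac ≤ m := by omega
        exact hSSAΔ _ hq (hall _ hq hqm) (hn ▸ hqd)
      left
      refine ⟨hnprime, ?_⟩
      intro r hr hrn
      constructor
      · intro hrπ
        have := h1 r hr hrπ hrn
        omega
      · intro hrn'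
        exact hall r hr (by omega)
  · exfalso
    have h3π : 3 ∈ π := (hπ8 3 Nat.prime_three (by norm_num)).mpr (Or.inr rfl)
    have h5 := hy4 3 Nat.prime_three h3π
    rw [hm8] at h5 hy2
    generalize (Orb H y₀).ncard = m₂ at hy1 hy2 h5
    interval_cases m₂ <;> revert h5 <;> decide

theorem main : CI' := by
  intro hECK hSSA hSSB hSSC hHCAU hTR n ih Ω _ _ hcard π h2 H hH hntr
  have hne : Nonempty Ω := by
    by_contra hemp
    rw [not_nonempty_iff] at hemp
    exact hntr (fun x => (hemp.false x).elim)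
  obtain ⟨x₀, hmax⟩ := Finite.exists_max (fun x : Ω => (Orb H x).ncard)
  exact core hECK hSSA hSSB hSSC hHCAU hTR n ih hcard π h2 H hH hntr x₀ _ rfl hmax

end Cfsg.Agent.Lib.Helper10.HSCI
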