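import Mathlib
import Cfsg.Agent.Lib.Helper37.HypStmt
import Cfsg.Agent.Lib.Helper44.NegPairs

/-!
# S5992, piece INVOL: every involution of `Omega_(2d+1)(q)` fixes a hyperbolic `m`-space.

In fact every isometry `x` with `x * x = 1` does: `V = V₊ ⊥ V₋`, exactly one of the two
eigenspaces has odd dimension, and `HypSub` builds the hyperbolic space as `E ⊔ W₁` with `E`, `W₁`
inside the eigenspaces.
-/

set_option autoImplicit false

namespace Cfsg.Agent.Lib.Helper10.HypINVOL

open Cfsg.Agent.Lib.Helper37.HypStmt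
open Cfsg.Agent.Lib.Helper44.NegPairs (oddQ coe_oddQ)
open Module

universe u

section basic

variable {F : Type u} [Field F] {d : ℕ}

/-- the polar form of the standard odd form as a bilinear form -/
noncomputable def bf (d : ℕ) (F : Type u) [Field F] : LinearMap.BilinForm F (I d → F) :=
  (oddQ d F).polarBilin

theorem bf_apply (u v : I d → F) :
    bf d F u v = QuadraticMap.polar (Cfsg.quadFormOdd d F) u v := rfl

theorem bf_comm (u v : I d → F) : bf d F u v = bf d F v u := by
  rw [bf_apply, bf_apply, QuadraticMap.polar_comm]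

theorem ndeg_iff (W : Submodule F (I d → F)) :
    NDeg d F W ↔ ∀ w ∈ W, w ≠ 0 → ∃ y ∈ W, bf d F y w ≠ 0 := by
  constructor
  · intro h w hw hw0
    exact (h w hw hw0).1
  · intro h w hw hw0
    obtain ⟨y, hy, hne⟩ := h w hw hw0
    refine ⟨⟨y, hy, hne⟩, ⟨y, hy, ?_⟩⟩
    rw [← bf_apply, bf_comm]
    exact hne

theorem ndeg_bot : NDeg d F (⊥ : Submodule F (I d → F)) := by
  rw [ndeg_iff]
  intro w hw hw0
  exact absurd ((Submodule.mem_bot F).mp hw) hw0

/-- orthogonal sums of nondegenerate subspaces are nondegenerate -/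
theorem ndeg_sup (A B : Submodule F (I d → F)) (horth : ∀ u ∈ A, ∀ v ∈ B, bf d F u v = 0)
    (hA : NDeg d F A) (hB : NDeg d F B) : NDeg d F (A ⊔ B) := by
  rw [ndeg_iff] at hA hB ⊢
  intro w hw hw0
  obtain ⟨u, hu, v, hv, rfl⟩ := Submodule.mem_sup.mp hw
  by_cases hu0 : u = 0
  · have hv0 : v ≠ 0 := by
      intro h
      apply hw0
      rw [hu0, h, add_zero]
    obtain ⟨y, hy, hne⟩ := hB v hv hv0
    refine ⟨y, Submodule.mem_sup_right hy, ?_⟩
    rw [map_add, bf_comm y u, horth u hu y hy, zero_add]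
    exact hne
  · obtain ⟨y, hy, hne⟩ := hA u hu hu0
    refine ⟨y, Submodule.mem_sup_left hy, ?_⟩
    rw [map_add, horth y hy v hv, add_zero]
    exact hne

theorem stab_sup (x : Matrix (I d) (I d) F) (A B : Submodule F (I d → F)) (hA : Stab x A)
    (hB : Stab x B) : Stab x (A ⊔ B) := by
  unfold Stab at hA hB ⊢
  rw [Submodule.map_sup]
  exact sup_le_sup hA hB

/-- a nondegenerate nonzero subspace contains a nonsingular vector (`2 ≠ 0`) -/
theorem exists_nonsing (h2 : (2 : F) ≠ 0) (B : Submodule F (I d → F)) (hB : NDeg d F B)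
    (hne : B ≠ ⊥) : ∃ b ∈ B, bf d F b b ≠ 0 := by
  rw [ndeg_iff] at hB
  by_contra hcon
  push Not at hcon
  obtain ⟨w, hw, hw0⟩ := (Submodule.ne_bot_iff B).mp hne
  obtain ⟨y, hy, hyw⟩ := hB w hw hw0
  have h1 := hcon (y + w) (B.add_mem hy hw)
  simp only [map_add, LinearMap.add_apply] at h1
  rw [hcon y hy, hcon w hw, bf_comm w y] at h1
  apply hyw
  have h3 : 2 * bf d F y w = 0 := by linear_combination h1
  rcases mul_eq_zero.mp h3 with h | h
  · exact absurd h h2
  · exact h

end basic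

theorem two_ne_zero_of_odd {F : Type u} [Field F] [Fintype F] (hq : Odd (Fintype.card F)) :
    (2 : F) ≠ 0 := by
  intro h
  have h1 : ringChar F ∣ 2 := (ringChar.spec F 2).mp (by exact_mod_cast h)
  have h3 : ringChar F = 2 := by
    rcases (Nat.dvd_prime Nat.prime_two).mp h1 with h4 | h4
    · exact absurd h4 (CharP.ringChar_ne_one)
    · exact h4
  have h5 := FiniteField.even_card_of_char_two h3
  rcases hq with ⟨k, hk⟩
  omega

/-- a hyperbolic `m`-space inside a nondegenerate subspace of larger dimension -/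
theorem hyp_in (hHS : HypSub.{u}) {F : Type u} [Field F] [Fintype F]
    (hq : Odd (Fintype.card F)) (d m : ℕ) (hme : Even m) (hm0 : 0 < m)
    (Y : Submodule F (I d → F)) (hY : NDeg d F Y) (h : m < finrank F Y) :
    ∃ W₁ : Submodule F (I d → F), W₁ ≤ Y ∧ Hyp d F m W₁ := by
  have hb : finrank F (⊥ : Submodule F (I d → F)) = 0 := finrank_bot F (I d → F)
  obtain ⟨W₁, hW₁, hH⟩ := hHS F hq d m hme ⊥ Y ndeg_bot hY
    (fun u hu v _ => by
      rw [(Submodule.mem_bot F).mp hu, ← bf_apply, map_zero, LinearMap.zero_apply])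
    (by rw [hb]; exact Even.zero) (by rw [hb]; exact hm0) (by rw [hb]; simpa using h)
  rw [bot_sup_eq] at hH
  exact ⟨W₁, hW₁, hH⟩

/-- The core: two orthogonal nondegenerate subspaces `A` (odd dimension), `B` of total dimension
`2d+1`, all of whose subspaces are `x`-stable. -/
theorem core (hHS : HypSub.{u}) {F : Type u} [Field F] [Fintype F]
    (hq : Odd (Fintype.card F)) (d m : ℕ) (hd : 3 ≤ d) (hm : 2 ≤ m) (hme : Even m)
    (hmn : m ≤ 2 * d) (x : Matrix (I d) (I d) F) (A B : Submodule F (I d → F))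
    (hA : NDeg d F A) (hB : NDeg d F B) (horth : ∀ u ∈ A, ∀ v ∈ B, bf d F u v = 0)
    (hdim : finrank F A + finrank F B = 2 * d + 1) (hodd : Odd (finrank F A))
    (hsA : ∀ W : Submodule F (I d → F), W ≤ A → Stab x W)
    (hsB : ∀ W : Submodule F (I d → F), W ≤ B → Stab x W) :
    ∃ W : Submodule F (I d → F), Hyp d F m W ∧ Stab x W := by
  have h2 : (2 : F) ≠ 0 := two_ne_zero_of_odd hq
  by_cases h1 : m < finrank F A
  · obtain ⟨W₁, hW₁, hH⟩ := hyp_in hHS hq d m hme (by omega) A hA h1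
    exact ⟨W₁, hH, hsA W₁ hW₁⟩
  by_cases h1' : m < finrank F B
  · obtain ⟨W₁, hW₁, hH⟩ := hyp_in hHS hq d m hme (by omega) B hB h1'
    exact ⟨W₁, hH, hsB W₁ hW₁⟩
  obtain ⟨k, hk⟩ := hme
  obtain ⟨j, hj⟩ := hodd
  by_cases h3 : 3 ≤ finrank F A
  · -- `E ≤ B` nondegenerate of even dimension `m + 1 - dim A`
    have he0 : Even (m + 1 - finrank F A) := ⟨k - j, by omega⟩
    obtain ⟨E, hEB, hEnd, hEdim⟩ : ∃ E : Submodule F (I d → F), E ≤ B ∧ NDeg d F E ∧
        finrank F E = m + 1 - finrank F A := by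
      by_cases hb : m + 1 - finrank F A = finrank F B
      · exact ⟨B, le_rfl, hB, hb.symm⟩
      · obtain ⟨W₁, hW₁, hH⟩ := hyp_in hHS hq d (m + 1 - finrank F A) he0 (by omega) B hB
          (by omega)
        exact ⟨W₁, hW₁, hH.2.1, hH.1⟩
    obtain ⟨W₁, hW₁, hH⟩ := hHS F hq d m ⟨k, hk⟩ E A hEnd hA
      (fun u hu v hv => by
        rw [← bf_apply, bf_comm]
        exact horth v hv u (hEB hu))
      (by rw [hEdim]; exact he0) (by rw [hEdim]; omega) (by rw [hEdim]; omega)
    exact ⟨E ⊔ W₁, hH, stab_sup x E W₁ (hsB E hEB) (hsA W₁ hW₁)⟩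
  · -- `dim A = 1`, `dim B = 2d = m`
    have ha1 : finrank F A = 1 := by omega
    have hb2 : finrank F B = 2 * d := by omega
    have hm2 : m = 2 * d := by omega
    have hBne : B ≠ ⊥ := by
      intro h
      rw [h, finrank_bot] at hb2
      omega
    obtain ⟨b₁, hb₁B, hb₁Q⟩ := exists_nonsing h2 B hB hBne
    have hb₁0 : b₁ ≠ 0 := by
      intro h
      apply hb₁Q
      rw [h, map_zero]
    obtain ⟨L, hL⟩ : ∃ L : Submodule F (I d → F), L = Submodule.span F {b₁} := ⟨_, rfl⟩
    have hLB : L ≤ B := by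
      rw [hL, Submodule.span_singleton_le_iff_mem]
      exact hb₁B
    have hLnd : NDeg d F L := by
      rw [ndeg_iff]
      intro w hw hw0
      rw [hL, Submodule.mem_span_singleton] at hw
      obtain ⟨c, rfl⟩ := hw
      have hc : c ≠ 0 := by
        intro h
        apply hw0
        rw [h, zero_smul]
      refine ⟨b₁, ?_, ?_⟩
      · rw [hL]
        exact Submodule.mem_span_singleton_self b₁
      · rw [map_smul, smul_eq_mul]
        exact mul_ne_zero hc hb₁Q
    have horthAL : ∀ u ∈ A, ∀ v ∈ L, bf d F u v = 0 := fun u hu v hv => horth u hu v (hLB hv)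
    have hEnd : NDeg d F (A ⊔ L) := ndeg_sup A L horthAL hA hLnd
    have hAL : A ⊓ L = ⊥ := by
      rw [eq_bot_iff]
      intro w hw
      rw [Submodule.mem_inf] at hw
      rw [Submodule.mem_bot]
      by_contra hw0
      obtain ⟨y, hy, hne⟩ := (ndeg_iff A).mp hA w hw.1 hw0
      exact hne (horthAL y hy w hw.2)
    have hLdim : finrank F L = 1 := by
      rw [hL]
      exact finrank_span_singleton hb₁0
    have hEdim : finrank F ↥(A ⊔ L) = 2 := by
      have h := Submodule.finrank_sup_add_finrank_inf_eq A L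
      rw [hAL, finrank_bot, ha1, hLdim] at h
      omega
    -- `Y = B ∩ b₁^⊥`
    obtain ⟨Y, hYdef⟩ : ∃ Y : Submodule F (I d → F), Y = B ⊓ LinearMap.ker (bf d F b₁) :=
      ⟨_, rfl⟩
    have hYB : Y ≤ B := by
      rw [hYdef]
      exact inf_le_left
    have hYker : ∀ v ∈ Y, bf d F b₁ v = 0 := by
      intro v hv
      rw [hYdef, Submodule.mem_inf, LinearMap.mem_ker] at hv
      exact hv.2
    -- every element of `B` is in `Y + L`
    have hsplit : ∀ y ∈ B, y - (bf d F b₁ y / bf d F b₁ b₁) • b₁ ∈ Y := by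
      intro y hy
      rw [hYdef, Submodule.mem_inf, LinearMap.mem_ker]
      refine ⟨B.sub_mem hy (B.smul_mem _ hb₁B), ?_⟩
      rw [map_sub, map_smul, smul_eq_mul, div_mul_cancel₀ _ hb₁Q, sub_self]
    have hYnd : NDeg d F Y := by
      rw [ndeg_iff]
      intro w hw hw0
      obtain ⟨y, hy, hne⟩ := (ndeg_iff B).mp hB w (hYB hw) hw0
      refine ⟨_, hsplit y hy, ?_⟩
      rw [map_sub, LinearMap.sub_apply, map_smul, LinearMap.smul_apply, hYker w hw, smul_zero,
        sub_zero]
      exact hne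
    have hBle : B ≤ Y ⊔ L := by
      intro y hy
      rw [Submodule.mem_sup]
      refine ⟨_, hsplit y hy, (bf d F b₁ y / bf d F b₁ b₁) • b₁, ?_, sub_add_cancel _ _⟩
      rw [hL]
      exact Submodule.smul_mem _ _ (Submodule.mem_span_singleton_self b₁)
    have hYdim : 2 * d ≤ finrank F Y + 1 := by
      have h1 := Submodule.finrank_mono hBle
      have h2 := Submodule.finrank_add_le_finrank_add_finrank Y L
      rw [hLdim] at h2
      omega
    obtain ⟨W₁, hW₁, hH⟩ := hHS F hq d m ⟨k, hk⟩ (A ⊔ L) Y hEnd hYnd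
      (fun u hu v hv => by
        obtain ⟨a, ha, l, hl, rfl⟩ := Submodule.mem_sup.mp hu
        rw [hL, Submodule.mem_span_singleton] at hl
        obtain ⟨c, rfl⟩ := hl
        rw [← bf_apply, map_add, LinearMap.add_apply, map_smul, LinearMap.smul_apply, hYker v hv,
          smul_zero, add_zero]
        exact horth a ha v (hYB hv))
      (by rw [hEdim]; exact ⟨1, rfl⟩) (by rw [hEdim]; omega) (by rw [hEdim]; omega)
    exact ⟨(A ⊔ L) ⊔ W₁, hH, stab_sup x _ W₁ (stab_sup x A L (hsA A le_rfl) (hsB L hLB))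
      (hsB W₁ (hW₁.trans hYB))⟩

theorem main (hHS : HypSub.{u}) (hTop : TopND.{u}) : Invol.{u} := by
  intro F _ _ hq d m hd hm hme hmn x hx hxo
  have h2 : (2 : F) ≠ 0 := two_ne_zero_of_odd hq
  -- `x` is an isometry
  have hiso : ∀ u : I d → F, Cfsg.quadFormOdd d F ((x : Matrix (I d) (I d) F).mulVec u) =
      Cfsg.quadFormOdd d F u := by
    obtain ⟨y, _, rfl⟩ := hx
    intro u
    exact y.2 u u
  have hxx : (x : Matrix (I d) (I d) F) * (x : Matrix (I d) (I d) F) = 1 := by
    have h := pow_orderOf_eq_one x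
    rw [hxo, pow_two] at h
    have h' := congrArg (fun g : Matrix.GeneralLinearGroup (I d) F => (g : Matrix (I d) (I d) F)) h
    simpa using h'
  obtain ⟨X, hX⟩ : ∃ X : Matrix (I d) (I d) F, X = (x : Matrix (I d) (I d) F) := ⟨_, rfl⟩
  rw [← hX] at hiso hxx ⊢
  have hxv : ∀ v : I d → F, X.mulVec (X.mulVec v) = v := by
    intro v
    rw [Matrix.mulVec_mulVec, hxx, Matrix.one_mulVec]
  have hbf : ∀ u v : I d → F, bf d F (X.mulVec u) (X.mulVec v) = bf d F u v := by
    intro u v
    rw [bf_apply, bf_apply]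
    unfold QuadraticMap.polar
    rw [← Matrix.mulVec_add, hiso, hiso, hiso]
  -- the eigenspaces
  obtain ⟨Vp, hVp⟩ : ∃ Vp : Submodule F (I d → F), ∀ v, v ∈ Vp ↔ X.mulVec v = v :=
    ⟨Fx X, fun v => mem_Fx X v⟩
  obtain ⟨Vm, hVm⟩ : ∃ Vm : Submodule F (I d → F), ∀ v, v ∈ Vm ↔ X.mulVec v = -v := by
    refine ⟨Fx (-X), fun v => ?_⟩
    rw [mem_Fx, Matrix.neg_mulVec, neg_eq_iff_eq_neg]
  have horth : ∀ u ∈ Vp, ∀ v ∈ Vm, bf d F u v = 0 := by
    intro u hu v hv
    have h := hbf u v
    rw [(hVp u).mp hu, (hVm v).mp hv, map_neg] at h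
    have h3 : 2 * bf d F u v = 0 := by linear_combination -h
    rcases mul_eq_zero.mp h3 with h' | h'
    · exact absurd h' h2
    · exact h'
  have hdecomp : ∀ v : I d → F, ∃ a ∈ Vp, ∃ b ∈ Vm, a + b = v := by
    intro v
    refine ⟨(2 : F)⁻¹ • (v + X.mulVec v), ?_, (2 : F)⁻¹ • (v - X.mulVec v), ?_, ?_⟩
    · rw [hVp, Matrix.mulVec_smul, Matrix.mulVec_add, hxv, add_comm]
    · rw [hVm, Matrix.mulVec_smul, Matrix.mulVec_sub, hxv, ← smul_neg, neg_sub]
    · rw [← smul_add, add_add_sub_cancel, ← two_smul F v, smul_smul, inv_mul_cancel₀ h2, one_smul]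
  have hcompl : IsCompl Vp Vm := by
    constructor
    · rw [Submodule.disjoint_def]
      intro v hp hm'
      have h := (hVp v).mp hp
      rw [(hVm v).mp hm'] at h
      have h3 : (2 : F) • v = 0 := by
        rw [two_smul]
        nth_rewrite 1 [← h]
        exact neg_add_cancel v
      rcases smul_eq_zero.mp h3 with h' | h'
      · exact absurd h' h2
      · exact h'
    · rw [codisjoint_iff, eq_top_iff]
      intro v _
      obtain ⟨a, ha, b, hb, rfl⟩ := hdecomp v
      exact Submodule.add_mem_sup ha hb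
  have hdim : finrank F Vp + finrank F Vm = 2 * d + 1 := by
    rw [Submodule.finrank_add_eq_of_isCompl hcompl, Module.finrank_fintype_fun_eq_card]
    simp [I]
    omega
  have htop := (ndeg_iff (⊤ : Submodule F (I d → F))).mp (hTop F hq d)
  have hVpnd : NDeg d F Vp := by
    rw [ndeg_iff]
    intro w hw hw0
    obtain ⟨y, _, hne⟩ := htop w Submodule.mem_top hw0
    obtain ⟨a, ha, b, hb, rfl⟩ := hdecomp y
    refine ⟨a, ha, ?_⟩
    rw [map_add, LinearMap.add_apply, bf_comm b w, horth w hw b hb, add_zero] at hne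
    exact hne
  have hVmnd : NDeg d F Vm := by
    rw [ndeg_iff]
    intro w hw hw0
    obtain ⟨y, _, hne⟩ := htop w Submodule.mem_top hw0
    obtain ⟨a, ha, b, hb, rfl⟩ := hdecomp y
    refine ⟨b, hb, ?_⟩
    rw [map_add, LinearMap.add_apply, horth a ha w hw, zero_add] at hne
    exact hne
  have hsp : ∀ W : Submodule F (I d → F), W ≤ Vp → Stab X W := by
    intro W hW
    unfold Stab
    rintro _ ⟨w, hw, rfl⟩
    rw [Matrix.toLin'_apply, (hVp w).mp (hW hw)]
    exact hw
  have hsm : ∀ W : Submodule F (I d → F), W ≤ Vm → Stab X W := by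
    intro W hW
    unfold Stab
    rintro _ ⟨w, hw, rfl⟩
    rw [Matrix.toLin'_apply, (hVm w).mp (hW hw)]
    exact W.neg_mem hw
  rcases Nat.even_or_odd (finrank F Vp) with hev | hodd
  · have hodd' : Odd (finrank F Vm) := by
      obtain ⟨k, hk⟩ := hev
      exact ⟨d - k, by omega⟩
    exact core hHS hq d m hd hm hme hmn X Vm Vp hVmnd hVpnd
      (fun u hu v hv => by rw [bf_comm]; exact horth v hv u hu) (by omega) hodd' hsm hsp
  · exact core hHS hq d m hd hm hme hmn X Vp Vm hVpnd hVmnd horth hdim hodd hsp hsm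

end Cfsg.Agent.Lib.Helper10.HypINVOL
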