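import Mathlib
import Cfsg.Agent.Lib.Helper76.BrRBStmt

/-!
# S4504, piece FUS: fusion in a Sylow subgroup of prime order
-/

set_option autoImplicit false

universe u

namespace Cfsg.Agent.Lib.Helper10.BrRBFUS

open Cfsg.Agent.Lib.Helper76.BrRB

theorem conj_pow_iter {L : Type u} [Group L] (x n : L) (k : ℕ) (h : n * x * n⁻¹ = x ^ k)
    (j : ℕ) : n ^ j * x * (n ^ j)⁻¹ = x ^ (k ^ j) := by
  induction j with
  | zero => simp
  | succ j ih =>
    have h1 : n ^ (j + 1) * x * (n ^ (j + 1))⁻¹ = n * (n ^ j * x * (n ^ j)⁻¹) * n⁻¹ := by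
      rw [pow_succ']
      group
    rw [h1, ih, ← conj_pow, h, ← pow_mul, pow_succ']

theorem main : FUS.{u} := by
  intro L _ _ p _ P hP he x n k hx hx1 hconj
  have hp : p.Prime := Fact.out
  -- the order of `x`
  have hox : orderOf x = p := by
    have h1 : orderOf x ∣ p := by
      have := orderOf_dvd_natCard (⟨x, hx⟩ : ↥(P : Subgroup L))
      rw [hP] at this
      rwa [← Subgroup.orderOf_coe] at this
    rcases (Nat.dvd_prime hp).mp h1 with h | h
    · exact absurd (orderOf_eq_one_iff.mp h) hx1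
    · exact h
  -- `P = zpowers x`
  have hPx : (P : Subgroup L) = Subgroup.zpowers x := by
    symm
    apply Subgroup.eq_of_le_of_card_ge
    · rw [Subgroup.zpowers_le]; exact hx
    · rw [hP, Nat.card_zpowers, hox]
  -- `n` normalizes `P`
  have hn : n ∈ Subgroup.normalizer ((P : Subgroup L) : Set L) := by
    apply Subgroup.mem_normalizer_fintype
    intro y hy
    have hy' : y ∈ Subgroup.zpowers x := hPx ▸ hy
    obtain ⟨j, rfl⟩ := Subgroup.mem_zpowers_iff.mp hy'
    have h2 : n * x ^ j * n⁻¹ = (n * x * n⁻¹) ^ j := by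
      rw [conj_zpow]
    show n * x ^ j * n⁻¹ ∈ (P : Subgroup L)
    rw [h2, hconj]
    exact (P : Subgroup L).zpow_mem ((P : Subgroup L).pow_mem hx k) j
  -- the centralizer is normal in the normalizer
  have hnorm : ((Subgroup.centralizer ((P : Subgroup L) : Set L)).subgroupOf
      (Subgroup.normalizer ((P : Subgroup L) : Set L))).Normal := by
    refine ⟨fun c hc ν => ?_⟩
    rw [Subgroup.mem_subgroupOf] at hc ⊢
    rw [Subgroup.mem_centralizer_iff] at hc ⊢
    intro y hy
    have hν : ((ν : L))⁻¹ ∈ Subgroup.normalizer ((P : Subgroup L) : Set L) :=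
      (Subgroup.normalizer ((P : Subgroup L) : Set L)).inv_mem ν.2
    have hy' : (ν : L)⁻¹ * y * ((ν : L)⁻¹)⁻¹ ∈ (P : Subgroup L) :=
      ((Subgroup.mem_normalizer_iff.mp hν) y).mp hy
    have hcy := hc _ hy'
    simp only [Subgroup.coe_mul, Subgroup.coe_inv, inv_inv] at hcy ⊢
    calc y * ((ν : L) * (c : L) * (ν : L)⁻¹)
        = (ν : L) * (((ν : L)⁻¹ * y * (ν : L)) * (c : L)) * (ν : L)⁻¹ := by group
      _ = (ν : L) * ((c : L) * ((ν : L)⁻¹ * y * (ν : L))) * (ν : L)⁻¹ := by rw [hcy]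
      _ = (ν : L) * (c : L) * (ν : L)⁻¹ * y := by group
  -- `n ^ e` centralizes `P`
  have hpow := @Subgroup.pow_index_mem _ _ _ hnorm (⟨n, hn⟩ : ↥(Subgroup.normalizer ((P : Subgroup L) : Set L)))
  rw [Subgroup.mem_subgroupOf] at hpow
  have hcent : n ^ (Subgroup.centralizer ((P : Subgroup L) : Set L)).relIndex
      (Subgroup.normalizer ((P : Subgroup L) : Set L)) ∈
      Subgroup.centralizer ((P : Subgroup L) : Set L) := by
    simpa [Subgroup.relIndex] using hpow
  obtain ⟨e, hedef⟩ : ∃ e, e = (Subgroup.centralizer ((P : Subgroup L) : Set L)).relIndex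
      (Subgroup.normalizer ((P : Subgroup L) : Set L)) := ⟨_, rfl⟩
  rw [← hedef] at hcent he
  have hcx : x * n ^ e = n ^ e * x := (Subgroup.mem_centralizer_iff.mp hcent) x hx
  have hiter := conj_pow_iter x n k hconj e
  have hxk : x ^ (k ^ e) = x ^ 1 := by
    rw [← hiter, pow_one, ← hcx]
    group
  have hmod : k ^ e ≡ 1 [MOD p] := by
    have := pow_eq_pow_iff_modEq.mp hxk
    rwa [hox] at this
  have hz : ((k : ℕ) : ZMod p) ^ e = 1 := by
    have := (ZMod.natCast_eq_natCast_iff _ _ _).mpr hmod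
    simpa using this
  have he2 : e = p / 2 := by omega
  have hk0 : ((k : ℕ) : ZMod p) ≠ 0 := by
    intro h0
    rw [h0] at hz
    have he0 : e ≠ 0 := by
      intro h
      have := hp.two_le
      omega
    rw [zero_pow he0] at hz
    exact zero_ne_one hz
  rw [he2] at hz
  exact (ZMod.euler_criterion p hk0).mpr hz

end Cfsg.Agent.Lib.Helper10.BrRBFUS
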