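import Mathlib
import Cfsg.Agent.Lib.Helper96.HallAltStmt

/-!
# S2538, piece KCNT: a fibre-preserving group whose fibrewise closure is even
-/

set_option autoImplicit false

namespace Cfsg.Agent.Lib.Helper10.HAKCNT

open Equiv Cfsg.Agent.Lib.Helper96.HallSymStmt Cfsg.Agent.Lib.Helper96.HallAltStmt

section

variable {Ω ι : Type} [Fintype Ω] [DecidableEq Ω] [DecidableEq ι] (f : Ω → ι)
  (K : Subgroup (Perm Ω)) (hK : K ≤ FP f)

/-- restriction to the fibre over `i` -/
def res (i : ι) : ↥K →* Perm {x : Ω // f x = i} where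
  toFun k := Perm.subtypePerm (p := fun x => f x = i) (k : Perm Ω) (fun x => by
    show f ((k : Perm Ω) x) = i ↔ f x = i
    rw [hK k.2 x])
  map_one' := by ext x; rfl
  map_mul' := by intro a b; ext x; rfl

omit [Fintype Ω] [DecidableEq Ω] [DecidableEq ι] in
theorem res_apply (i : ι) (k : ↥K) (x : {x : Ω // f x = i}) :
    ((res f K hK i k x : {x : Ω // f x = i}) : Ω) = (k : Perm Ω) (x : Ω) := rfl

theorem res_even (hev : ∀ h : Perm Ω, FClos K f h → h ∈ alternatingGroup Ω) (i : ι) (k : ↥K) :
    res f K hK i k ∈ alternatingGroup {x : Ω // f x = i} := by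
  rw [Perm.mem_alternatingGroup, ← Perm.sign_ofSubtype]
  rw [← Perm.mem_alternatingGroup]
  apply hev
  intro j
  by_cases hj : j = i
  · refine ⟨k, k.2, fun x hx => ?_⟩
    have hx' : f x = i := hx.trans hj
    rw [Perm.ofSubtype_apply_of_mem (p := fun y => f y = i) (res f K hK i k) hx']
    rfl
  · refine ⟨1, K.one_mem, fun x hx => ?_⟩
    have hx' : ¬ f x = i := fun h => hj (hx.symm.trans h)
    rw [Perm.ofSubtype_apply_of_not_mem (p := fun y => f y = i) (res f K hK i k) hx']
    rfl

include hK in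
theorem card_dvd [Fintype ι] (hev : ∀ h : Perm Ω, FClos K f h → h ∈ alternatingGroup Ω) :
    Nat.card ↥K ∣ ∏ i : ι, Nat.card ↥(alternatingGroup {x : Ω // f x = i}) := by
  rw [← Nat.card_pi]
  let ψ : ↥K →* (∀ i : ι, ↥(alternatingGroup {x : Ω // f x = i})) :=
    MonoidHom.pi (fun i => (res f K hK i).codRestrict (alternatingGroup {x : Ω // f x = i})
      (fun k => res_even f K hK hev i k))
  apply Subgroup.card_dvd_of_injective ψ
  intro k k' hkk
  apply Subtype.ext
  ext x
  have h1 := congrFun hkk (f x)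
  have h2 := congrArg (fun r : ↥(alternatingGroup {y : Ω // f y = f x}) =>
    (((r : Perm {y : Ω // f y = f x}) ⟨x, rfl⟩ : {y : Ω // f y = f x}) : Ω)) h1
  exact h2

end

theorem main : Cfsg.Agent.Lib.Helper96.HallAltStmt.KCNT := by
  intro Ω _ _ ι _ f K hK h2 hev
  classical
  have hd := card_dvd f K hK hev
  have hfac : ∀ i : ι, ((f ⁻¹' {i}).ncard).factorial =
      2 * Nat.card ↥(alternatingGroup {x : Ω // f x = i}) := by
    intro i
    have hcard : Nat.card {x : Ω // f x = i} = (f ⁻¹' {i}).ncard := Nat.card_coe_set_eq (f ⁻¹' {i})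
    have hnt : Nontrivial {x : Ω // f x = i} := by
      rw [← Finite.one_lt_card_iff_nontrivial, hcard]
      exact h2 i
    rw [two_mul_nat_card_alternatingGroup, Nat.card_perm, hcard]
  rw [Finset.prod_congr rfl (fun i _ => hfac i), Finset.prod_mul_distrib, Finset.prod_const,
    Finset.card_univ]
  exact Nat.mul_dvd_mul_left _ hd

end Cfsg.Agent.Lib.Helper10.HAKCNT
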