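import Cfsg.Agent.Lib.Helper3.M24BlkStmt
import Cfsg.Agent.Lib.Helper35.M24Fix
import Cfsg.Agent.Lib.Helper7.M24Octad

set_option autoImplicit false

namespace Cfsg.Agent.Lib.Helper10.M24K5

open Cfsg Cfsg.Agent.Lib.Helper7.GolayBase Cfsg.Agent.Lib.Helper7.GolayCode
  Cfsg.Agent.Lib.Helper7.GolayPerm Cfsg.Agent.Lib.Helper7.GolayRigid
  Cfsg.Agent.Lib.Helper7.M24Octad Cfsg.Agent.Lib.Helper7.M24Core
  Cfsg.Agent.Lib.Helper3.M24Blk Cfsg.Agent.Lib.Helper3.M24BlkStmt

open scoped Pointwise

/-- table of `r5` -/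
def rT : List Nat :=
  [8, 2, 5, 3, 0, 15, 19, 7, 20, 9, 18, 22, 6, 4, 23, 21, 16, 10, 11, 14, 13, 1, 17, 12]

theorem rep_r : Rep ((r5 : G24) : Equiv.Perm GolayPt) rT := by
  have hb : Rep ((r15 : G24) : Equiv.Perm GolayPt) r15T := rep_mkG _ _ _ _
  have h := (hb.mul hb).mul hb
  have e : ((r5 : G24) : Equiv.Perm GolayPt) =
      (r15 : Equiv.Perm GolayPt) * (r15 : Equiv.Perm GolayPt) * (r15 : Equiv.Perm GolayPt) := by
    show (((r15 : G24) ^ 3 : G24) : Equiv.Perm GolayPt) = _
    rw [Subgroup.coe_pow, pow_succ, pow_succ, pow_one]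
  have e2 : tmul (tmul r15T r15T) r15T = rT := by decide +kernel
  rw [e, ← e2]
  exact h

/-- iterating the table -/
def itT (k i : Nat) : Nat := Nat.iterate (fun x => rT.getD x 0) k i

theorem rT_lt : ∀ i, i < 24 → rT.getD i 0 < 24 := by decide +kernel

theorem rpow (k : Nat) : ∀ i, i < 24 →
    (((r5 : G24) : Equiv.Perm GolayPt) ^ k) (pt i) = pt (itT k i) := by
  induction k with
  | zero => intro i _; rfl
  | succ k ih =>
    intro i hi
    rw [pow_succ, Equiv.Perm.mul_apply, rep_r.apply hi, ih _ (rT_lt i hi)]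
    show pt (itT k (rT.getD i 0)) = pt (Nat.iterate (fun x => rT.getD x 0) (k + 1) i)
    rw [Function.iterate_succ_apply]
    rfl

theorem mask_mem (m : Nat) (h1 : inCode m = true) (h2 : popc m = 8) : mk m ∈ octads :=
  (mem_octads_iff _).mpr ⟨_, mem_octadList.mpr ⟨inCode_sound h1, h2⟩, rfl⟩

theorem o1_mem : mk 1122713 ∈ octads := mask_mem _ (by decide +kernel) (by decide +kernel)

section
variable (t : G24) (hc : Commute t r5)
  (hfix : ∀ p : GolayPt, (r5 : Equiv.Perm GolayPt) p = p → (t : Equiv.Perm GolayPt) p = p)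

include hc in
theorem comm_pow (k : Nat) (p : GolayPt) :
    (t : Equiv.Perm GolayPt) ((((r5 : G24) : Equiv.Perm GolayPt) ^ k) p) =
      (((r5 : G24) : Equiv.Perm GolayPt) ^ k) ((t : Equiv.Perm GolayPt) p) := by
  have h1 : t * r5 ^ k = r5 ^ k * t := (hc.pow_right k).eq
  have h2 := congrArg (fun g : G24 => (g : Equiv.Perm GolayPt) p) h1
  simpa [Subgroup.coe_mul, Subgroup.coe_pow] using h2

include hfix in
theorem fixF (i : Nat) (hi : i < 24) (h : rT.getD i 0 = i) :
    (t : Equiv.Perm GolayPt) (pt i) = pt i :=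
  hfix _ (rep_r.apply_eq hi h)

include hc hfix in
/-- the image of `pt 0` in another cycle: contradiction -/
theorem caseCj (m : Nat) (h1 : inCode m = true) (h2 : popc m = 8) (h9 : pt 9 ∈ mk m)
    (a0 a1 a2 a3 a4 : Nat)
    (hcard : ({pt a0, pt a1, pt a2, pt a3, pt a4} : Finset GolayPt).card = 5)
    (hm0 : pt a0 ∈ mk m) (hm1 : pt a1 ∈ mk m) (hm2 : pt a2 ∈ mk m) (hm3 : pt a3 ∈ mk m)
    (hm4 : pt a4 ∈ mk m)
    (e0 : (((r5 : G24) : Equiv.Perm GolayPt) ^ 0) ((t : Equiv.Perm GolayPt) (pt 0)) = pt a0)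
    (e1 : (((r5 : G24) : Equiv.Perm GolayPt) ^ 1) ((t : Equiv.Perm GolayPt) (pt 0)) = pt a1)
    (e2 : (((r5 : G24) : Equiv.Perm GolayPt) ^ 2) ((t : Equiv.Perm GolayPt) (pt 0)) = pt a2)
    (e3 : (((r5 : G24) : Equiv.Perm GolayPt) ^ 3) ((t : Equiv.Perm GolayPt) (pt 0)) = pt a3)
    (e4 : (((r5 : G24) : Equiv.Perm GolayPt) ^ 4) ((t : Equiv.Perm GolayPt) (pt 0)) = pt a4) :
    False := by
  have hto : (t : Equiv.Perm GolayPt) • mk 1122713 ∈ octads := smul_mem_octads t.2 o1_mem
  have hmem : ∀ k : Nat, k < 5 →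
      (((r5 : G24) : Equiv.Perm GolayPt) ^ k) ((t : Equiv.Perm GolayPt) (pt 0)) ∈
        (t : Equiv.Perm GolayPt) • mk 1122713 := by
    intro k hk
    rw [← comm_pow t hc k (pt 0), rpow k 0 (by norm_num)]
    apply Finset.smul_mem_smul_finset
    rw [mem_mk]
    interval_cases k <;> decide +kernel
  have hsub : ({pt a0, pt a1, pt a2, pt a3, pt a4} : Finset GolayPt) ⊆
      (t : Equiv.Perm GolayPt) • mk 1122713 ∩ mk m := by
    intro p hp
    simp only [Finset.mem_insert, Finset.mem_singleton] at hp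
    rw [Finset.mem_inter]
    rcases hp with rfl | rfl | rfl | rfl | rfl
    · exact ⟨e0 ▸ hmem 0 (by norm_num), hm0⟩
    · exact ⟨e1 ▸ hmem 1 (by norm_num), hm1⟩
    · exact ⟨e2 ▸ hmem 2 (by norm_num), hm2⟩
    · exact ⟨e3 ▸ hmem 3 (by norm_num), hm3⟩
    · exact ⟨e4 ▸ hmem 4 (by norm_num), hm4⟩
  have heq : (t : Equiv.Perm GolayPt) • mk 1122713 = mk m :=
    octad_unique hto (mask_mem m h1 h2) (by rw [← hcard]; exact Finset.card_le_card hsub)
  have h9' : pt 9 ∈ (t : Equiv.Perm GolayPt) • mk 1122713 := by rw [heq]; exact h9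
  rw [← Finset.inv_smul_mem_iff] at h9'
  have hf9 : (t : Equiv.Perm GolayPt) (pt 9) = pt 9 := fixF t hfix 9 (by norm_num) (by decide +kernel)
  have : ((t : Equiv.Perm GolayPt))⁻¹ • pt 9 = pt 9 := by
    show ((t : Equiv.Perm GolayPt))⁻¹ (pt 9) = pt 9
    rw [Equiv.Perm.inv_eq_iff_eq, hf9]
  rw [this, mem_mk] at h9'
  revert h9'
  decide +kernel

include hc hfix in
/-- the image of `pt 0` in its own cycle: a power of `r5` -/
theorem caseC1 (b : Nat)
    (h : (t : Equiv.Perm GolayPt) (pt 0) = (((r5 : G24) : Equiv.Perm GolayPt) ^ b) (pt 0)) :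
    t ∈ Subgroup.zpowers r5 := by
  set t' : G24 := (r5 ^ b)⁻¹ * t with ht'
  have hc' : Commute t' r5 := by
    rw [ht']
    exact ((Commute.refl r5).pow_left b).inv_left.mul_left hc
  have hval : ∀ p : GolayPt, (t' : Equiv.Perm GolayPt) p =
      ((((r5 : G24) : Equiv.Perm GolayPt) ^ b))⁻¹ ((t : Equiv.Perm GolayPt) p) := by
    intro p
    rw [ht']
    simp [Subgroup.coe_mul]
  have h0 : (t' : Equiv.Perm GolayPt) (pt 0) = pt 0 := by
    rw [hval, h, Equiv.Perm.inv_eq_iff_eq]
  have hfix' : ∀ p : GolayPt, (r5 : Equiv.Perm GolayPt) p = p → (t' : Equiv.Perm GolayPt) p = p := by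
    intro p hp
    rw [hval, hfix p hp, Equiv.Perm.inv_eq_iff_eq]
    clear h0 hval hc' ht' h
    induction b with
    | zero => rfl
    | succ b ih => rw [pow_succ, Equiv.Perm.mul_apply, hp, ← ih]
  have hcyc : ∀ k : Nat, (t' : Equiv.Perm GolayPt) (pt (itT k 0)) = pt (itT k 0) := by
    intro k
    rw [← rpow k 0 (by norm_num), comm_pow t' hc' k (pt 0), h0]
  have key : (t' : Equiv.Perm GolayPt) = 1 := by
    refine Cfsg.Agent.Lib.Helper35.M24Fix.eq_one_of_fix_seven t'.2
      ({pt 0, pt 8, pt 20, pt 13, pt 4} : Finset GolayPt) (by decide +kernel) o1_mem ?_ ?_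
      (y := pt 3) ?_ ?_ ?_ (x := pt 9) ?_ ?_
    · intro p hp
      simp only [Finset.mem_insert, Finset.mem_singleton] at hp
      rw [mem_mk]
      rcases hp with rfl | rfl | rfl | rfl | rfl <;> decide +kernel
    · intro p hp
      simp only [Finset.mem_insert, Finset.mem_singleton] at hp
      rcases hp with rfl | rfl | rfl | rfl | rfl
      · exact hcyc 0
      · exact hcyc 1
      · exact hcyc 2
      · exact hcyc 3
      · exact hcyc 4
    · rw [mem_mk]; decide +kernel
    · decide +kernel
    · exact fixF t' hfix' 3 (by norm_num) (by decide +kernel)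
    · rw [mem_mk]; decide +kernel
    · exact fixF t' hfix' 9 (by norm_num) (by decide +kernel)
  have h1 : t' = 1 := Subtype.ext key
  have h2 : t = r5 ^ b := by
    have : t = r5 ^ b * t' := by rw [ht']; group
    rw [this, h1, mul_one]
  rw [h2]
  exact Subgroup.pow_mem _ (Subgroup.mem_zpowers r5) b

end

theorem main : K5Stmt := by
  intro t hc hfix
  have hi : idx ((t : Equiv.Perm GolayPt) (pt 0)) < 24 := idx_lt _
  have hq : (t : Equiv.Perm GolayPt) (pt 0) = pt (idx ((t : Equiv.Perm GolayPt) (pt 0))) :=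
    (pt_idx _).symm
  generalize idx ((t : Equiv.Perm GolayPt) (pt 0)) = i at hi hq
  have hF : ∀ j : Nat, j < 24 → rT.getD j 0 = j → i = j → False := by
    intro j hj hfj hij
    have h1 := fixF t hfix j hj hfj
    rw [hij] at hq
    have h2 : pt 0 = pt j := (t : Equiv.Perm GolayPt).injective (hq.trans h1.symm)
    have h3 : idx (pt 0) = idx (pt j) := congrArg idx h2
    rw [idx_pt (by norm_num), idx_pt hj] at h3
    rw [← h3] at hfj
    revert hfj
    decide +kernel
  have hC1 : ∀ b : Nat, itT b 0 = i → t ∈ Subgroup.zpowers r5 := by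
    intro b hb
    apply caseC1 t hc hfix b
    rw [hq, rpow b 0 (by norm_num), hb]
  have hCj : ∀ (m : Nat) (_ : inCode m = true) (_ : popc m = 8) (_ : pt 9 ∈ mk m)
      (a0 a1 a2 a3 a4 : Nat),
      ({pt a0, pt a1, pt a2, pt a3, pt a4} : Finset GolayPt).card = 5 →
      pt a0 ∈ mk m → pt a1 ∈ mk m → pt a2 ∈ mk m → pt a3 ∈ mk m → pt a4 ∈ mk m →
      itT 0 i = a0 → itT 1 i = a1 → itT 2 i = a2 → itT 3 i = a3 → itT 4 i = a4 → False := by
    intro m h1 h2 h9 a0 a1 a2 a3 a4 hcard hm0 hm1 hm2 hm3 hm4 e0 e1 e2 e3 e4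
    refine caseCj t hc hfix m h1 h2 h9 a0 a1 a2 a3 a4 hcard hm0 hm1 hm2 hm3 hm4 ?_ ?_ ?_ ?_ ?_
    · rw [hq, rpow 0 i hi, e0]
    · rw [hq, rpow 1 i hi, e1]
    · rw [hq, rpow 2 i hi, e2]
    · rw [hq, rpow 3 i hi, e3]
    · rw [hq, rpow 4 i hi, e4]
  interval_cases i
  · exact hC1 0 (by decide +kernel)
  · exact (hCj 2130606 (by decide +kernel) (by decide +kernel) (by rw [mem_mk]; decide +kernel) 1 2 5 15 21 (by decide +kernel) (by rw [mem_mk]; decide +kernel) (by rw [mem_mk]; decide +kernel) (by rw [mem_mk]; decide +kernel) (by rw [mem_mk]; decide +kernel) (by rw [mem_mk]; decide +kernel) (by decide +kernel) (by decide +kernel) (by decide +kernel) (by decide +kernel) (by decide +kernel)).elim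
  · exact (hCj 2130606 (by decide +kernel) (by decide +kernel) (by rw [mem_mk]; decide +kernel) 2 5 15 21 1 (by decide +kernel) (by rw [mem_mk]; decide +kernel) (by rw [mem_mk]; decide +kernel) (by rw [mem_mk]; decide +kernel) (by rw [mem_mk]; decide +kernel) (by rw [mem_mk]; decide +kernel) (by decide +kernel) (by decide +kernel) (by decide +kernel) (by decide +kernel) (by decide +kernel)).elim
  · exact (hF 3 (by norm_num) (by decide +kernel) rfl).elim
  · exact hC1 4 (by decide +kernel)
  · exact (hCj 2130606 (by decide +kernel) (by decide +kernel) (by rw [mem_mk]; decide +kernel) 5 15 21 1 2 (by decide +kernel) (by rw [mem_mk]; decide +kernel) (by rw [mem_mk]; decide +kernel) (by rw [mem_mk]; decide +kernel) (by rw [mem_mk]; decide +kernel) (by rw [mem_mk]; decide +kernel) (by decide +kernel) (by decide +kernel) (by decide +kernel) (by decide +kernel) (by decide +kernel)).elim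
  · exact (hCj 8999616 (by decide +kernel) (by decide +kernel) (by rw [mem_mk]; decide +kernel) 6 19 14 23 12 (by decide +kernel) (by rw [mem_mk]; decide +kernel) (by rw [mem_mk]; decide +kernel) (by rw [mem_mk]; decide +kernel) (by rw [mem_mk]; decide +kernel) (by rw [mem_mk]; decide +kernel) (by decide +kernel) (by decide +kernel) (by decide +kernel) (by decide +kernel) (by decide +kernel)).elim
  · exact (hF 7 (by norm_num) (by decide +kernel) rfl).elim
  · exact hC1 1 (by decide +kernel)
  · exact (hF 9 (by norm_num) (by decide +kernel) rfl).elim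
  · exact (hCj 4656648 (by decide +kernel) (by decide +kernel) (by rw [mem_mk]; decide +kernel) 10 18 11 22 17 (by decide +kernel) (by rw [mem_mk]; decide +kernel) (by rw [mem_mk]; decide +kernel) (by rw [mem_mk]; decide +kernel) (by rw [mem_mk]; decide +kernel) (by rw [mem_mk]; decide +kernel) (by decide +kernel) (by decide +kernel) (by decide +kernel) (by decide +kernel) (by decide +kernel)).elim
  · exact (hCj 4656648 (by decide +kernel) (by decide +kernel) (by rw [mem_mk]; decide +kernel) 11 22 17 10 18 (by decide +kernel) (by rw [mem_mk]; decide +kernel) (by rw [mem_mk]; decide +kernel) (by rw [mem_mk]; decide +kernel) (by rw [mem_mk]; decide +kernel) (by rw [mem_mk]; decide +kernel) (by decide +kernel) (by decide +kernel) (by decide +kernel) (by decide +kernel) (by decide +kernel)).elim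
  · exact (hCj 8999616 (by decide +kernel) (by decide +kernel) (by rw [mem_mk]; decide +kernel) 12 6 19 14 23 (by decide +kernel) (by rw [mem_mk]; decide +kernel) (by rw [mem_mk]; decide +kernel) (by rw [mem_mk]; decide +kernel) (by rw [mem_mk]; decide +kernel) (by rw [mem_mk]; decide +kernel) (by decide +kernel) (by decide +kernel) (by decide +kernel) (by decide +kernel) (by decide +kernel)).elim
  · exact hC1 3 (by decide +kernel)
  · exact (hCj 8999616 (by decide +kernel) (by decide +kernel) (by rw [mem_mk]; decide +kernel) 14 23 12 6 19 (by decide +kernel) (by rw [mem_mk]; decide +kernel) (by rw [mem_mk]; decide +kernel) (by rw [mem_mk]; decide +kernel) (by rw [mem_mk]; decide +kernel) (by rw [mem_mk]; decide +kernel) (by decide +kernel) (by decide +kernel) (by decide +kernel) (by decide +kernel) (by decide +kernel)).elim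
  · exact (hCj 2130606 (by decide +kernel) (by decide +kernel) (by rw [mem_mk]; decide +kernel) 15 21 1 2 5 (by decide +kernel) (by rw [mem_mk]; decide +kernel) (by rw [mem_mk]; decide +kernel) (by rw [mem_mk]; decide +kernel) (by rw [mem_mk]; decide +kernel) (by rw [mem_mk]; decide +kernel) (by decide +kernel) (by decide +kernel) (by decide +kernel) (by decide +kernel) (by decide +kernel)).elim
  · exact (hF 16 (by norm_num) (by decide +kernel) rfl).elim
  · exact (hCj 4656648 (by decide +kernel) (by decide +kernel) (by rw [mem_mk]; decide +kernel) 17 10 18 11 22 (by decide +kernel) (by rw [mem_mk]; decide +kernel) (by rw [mem_mk]; decide +kernel) (by rw [mem_mk]; decide +kernel) (by rw [mem_mk]; decide +kernel) (by rw [mem_mk]; decide +kernel) (by decide +kernel) (by decide +kernel) (by decide +kernel) (by decide +kernel) (by decide +kernel)).elim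
  · exact (hCj 4656648 (by decide +kernel) (by decide +kernel) (by rw [mem_mk]; decide +kernel) 18 11 22 17 10 (by decide +kernel) (by rw [mem_mk]; decide +kernel) (by rw [mem_mk]; decide +kernel) (by rw [mem_mk]; decide +kernel) (by rw [mem_mk]; decide +kernel) (by rw [mem_mk]; decide +kernel) (by decide +kernel) (by decide +kernel) (by decide +kernel) (by decide +kernel) (by decide +kernel)).elim
  · exact (hCj 8999616 (by decide +kernel) (by decide +kernel) (by rw [mem_mk]; decide +kernel) 19 14 23 12 6 (by decide +kernel) (by rw [mem_mk]; decide +kernel) (by rw [mem_mk]; decide +kernel) (by rw [mem_mk]; decide +kernel) (by rw [mem_mk]; decide +kernel) (by rw [mem_mk]; decide +kernel) (by decide +kernel) (by decide +kernel) (by decide +kernel) (by decide +kernel) (by decide +kernel)).elim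
  · exact hC1 2 (by decide +kernel)
  · exact (hCj 2130606 (by decide +kernel) (by decide +kernel) (by rw [mem_mk]; decide +kernel) 21 1 2 5 15 (by decide +kernel) (by rw [mem_mk]; decide +kernel) (by rw [mem_mk]; decide +kernel) (by rw [mem_mk]; decide +kernel) (by rw [mem_mk]; decide +kernel) (by rw [mem_mk]; decide +kernel) (by decide +kernel) (by decide +kernel) (by decide +kernel) (by decide +kernel) (by decide +kernel)).elim
  · exact (hCj 4656648 (by decide +kernel) (by decide +kernel) (by rw [mem_mk]; decide +kernel) 22 17 10 18 11 (by decide +kernel) (by rw [mem_mk]; decide +kernel) (by rw [mem_mk]; decide +kernel) (by rw [mem_mk]; decide +kernel) (by rw [mem_mk]; decide +kernel) (by rw [mem_mk]; decide +kernel) (by decide +kernel) (by decide +kernel) (by decide +kernel) (by decide +kernel) (by decide +kernel)).elim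
  · exact (hCj 8999616 (by decide +kernel) (by decide +kernel) (by rw [mem_mk]; decide +kernel) 23 12 6 19 14 (by decide +kernel) (by rw [mem_mk]; decide +kernel) (by rw [mem_mk]; decide +kernel) (by rw [mem_mk]; decide +kernel) (by rw [mem_mk]; decide +kernel) (by rw [mem_mk]; decide +kernel) (by decide +kernel) (by decide +kernel) (by decide +kernel) (by decide +kernel) (by decide +kernel)).elim

end Cfsg.Agent.Lib.Helper10.M24K5
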