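import Mathlib
import Cfsg.Agent.Lib.Helper94.OMiPStmt
import Cfsg.Agent.Lib.Helper13.OPPFIXB

/-!
# S5991 (r = p sub-call by helper94) / MPFIXB  (helper10)

An isometry `x` of the minus form with `Fix x ≤ (x - 1) V`, `(x - 1) ^ 3 = 0` and
`dim (x - 1) ^ 2 V ≤ 2` stabilising a nondegenerate subspace of odd dimension `m` forces
`m ≡ 3 (mod 4)`.  Port of `Helper13.OPPFIXB.main` (the abstract `core` there is form-free).
-/

set_option autoImplicit false

universe u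

open scoped Matrix

namespace Cfsg.Agent.Lib.Helper10.MPFIXB

open Cfsg.Agent.Lib.Helper94.OMiPStmt

/-- `Cfsg.quadFormMinus` as a quadratic form. -/
noncomputable def minusQ' (m : ℕ) (F : Type*) [Field F] (a b : F) :
    QuadraticForm F ((Fin m ⊕ Fin m) ⊕ Fin 2 → F) :=
  (((∑ i : Fin m, QuadraticMap.proj (R := F) (Sum.inl (Sum.inl i)) (Sum.inl (Sum.inr i)))
    + (QuadraticMap.proj (R := F) (Sum.inr 0) (Sum.inr 0)
      + a • QuadraticMap.proj (R := F) (Sum.inr 0) (Sum.inr 1)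
      + b • QuadraticMap.proj (R := F) (Sum.inr 1) (Sum.inr 1)))
      : QuadraticForm F ((Fin m ⊕ Fin m) ⊕ Fin 2 → F)).copy
    (Cfsg.quadFormMinus m F a b)
    (by funext v; simp [Cfsg.quadFormMinus, pow_two]; ring)

theorem mem_FxM {F : Type u} [Field F] {d : ℕ} (x : Matrix (Mi d) (Mi d) F) (v : Mi d → F) :
    v ∈ FxM x ↔ x *ᵥ v = v := by
  unfold FxM
  rw [LinearMap.mem_ker, LinearMap.sub_apply, Matrix.toLin'_apply, LinearMap.id_apply, sub_eq_zero]

theorem main : MPFixB.{u} := by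
  intro F _ _ hq d m hd hm a b hab x hx hfix hN3 hr2 W hWm hWnd hWst
  classical
  have h2 : (2 : F) ≠ 0 := Cfsg.Agent.Lib.Helper13.OPPFIXB.two_ne_zero_of_odd hq
  obtain ⟨BV, hBV⟩ : ∃ BV : LinearMap.BilinForm F (Mi d → F),
      ∀ u v, BV u v = QuadraticMap.polar (Cfsg.quadFormMinus (d - 1) F a b) u v :=
    ⟨QuadraticMap.polarBilin (minusQ' (d - 1) F a b), fun u v => rfl⟩
  obtain ⟨NV, hNV⟩ : ∃ NV : (Mi d → F) →ₗ[F] (Mi d → F),
      NV = NM (x : Matrix (Mi d) (Mi d) F) := ⟨_, rfl⟩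
  rw [← hNV] at hfix hN3 hr2
  have hNVapp : ∀ v, NV v = (x : Matrix (Mi d) (Mi d) F) *ᵥ v - v := by
    intro v
    rw [hNV]
    unfold NM
    rw [LinearMap.sub_apply, Matrix.toLin'_apply, LinearMap.id_apply]
  have hQ : ∀ v, Cfsg.quadFormMinus (d - 1) F a b ((x : Matrix (Mi d) (Mi d) F) *ᵥ v) =
      Cfsg.quadFormMinus (d - 1) F a b v := fun v => hx v v
  have hiso : ∀ u v, BV ((x : Matrix (Mi d) (Mi d) F) *ᵥ u) ((x : Matrix (Mi d) (Mi d) F) *ᵥ v) =
      BV u v := by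
    intro u v
    rw [hBV, hBV]
    unfold QuadraticMap.polar
    rw [← Matrix.mulVec_add, hQ, hQ, hQ]
  have hadjV : ∀ u v, BV (NV u) v + BV u (NV v) + BV (NV u) (NV v) = 0 := by
    intro u v
    have e := hiso u v
    have e1 : (x : Matrix (Mi d) (Mi d) F) *ᵥ u = u + NV u := by rw [hNVapp]; abel
    have e2 : (x : Matrix (Mi d) (Mi d) F) *ᵥ v = v + NV v := by rw [hNVapp]; abel
    rw [e1, e2] at e
    simp only [map_add, LinearMap.add_apply] at e
    linear_combination e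
  have hNW : ∀ w ∈ W, NV w ∈ W := by
    intro w hw
    rw [hNVapp]
    refine W.sub_mem (hWst ?_) hw
    exact ⟨w, hw, Matrix.toLin'_apply _ _⟩
  obtain ⟨N, hN⟩ : ∃ N : W →ₗ[F] W, ∀ w : W, (N w : Mi d → F) = NV w.1 :=
    ⟨NV.restrict hNW, fun w => rfl⟩
  obtain ⟨B, hB⟩ : ∃ B : LinearMap.BilinForm F W, ∀ u v : W, B u v = BV u.1 v.1 :=
    ⟨BV.restrict W, fun u v => rfl⟩
  have key := Cfsg.Agent.Lib.Helper13.OPPFIXB.core h2 B N ?_ ?_ ?_ ?_ ?_ ?_ ?_
  · rw [hWm] at key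
    exact key
  · intro u v
    rw [hB, hB, hBV, hBV, QuadraticMap.polar_comm]
  · intro u hu
    by_contra hne
    have hne' : (u : Mi d → F) ≠ 0 := fun h => hne (Subtype.ext h)
    obtain ⟨-, ⟨y, hy, hy2⟩⟩ := hWnd u.1 u.2 hne'
    apply hy2
    have h3 := hu ⟨y, hy⟩
    rw [hB, hBV] at h3
    exact h3
  · intro u v
    rw [hB, hB, hB, hN, hN]
    exact hadjV u.1 v.1
  · intro v
    apply Subtype.ext
    rw [hN, hN, hN]
    exact hN3 v.1
  · intro u k hu hk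
    have hu' : NV u.1 = 0 := by rw [← hN, hu]; rfl
    have hk' : NV k.1 = 0 := by rw [← hN, hk]; rfl
    have hufix : u.1 ∈ FxM (x : Matrix (Mi d) (Mi d) F) := by
      rw [mem_FxM]
      have h3 := hNVapp u.1
      rw [hu'] at h3
      exact sub_eq_zero.mp h3.symm
    obtain ⟨v, hv⟩ := hfix hufix
    rw [hB, ← hv]
    have e := hadjV v k.1
    rw [hk'] at e
    simpa using e
  · have hle : (LinearMap.range (N ∘ₗ N)).map W.subtype ≤ LinearMap.range (NV ∘ₗ NV) := by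
      rintro _ ⟨_, ⟨v, rfl⟩, rfl⟩
      refine ⟨v.1, ?_⟩
      simp only [LinearMap.comp_apply, Submodule.subtype_apply, hN]
    have h1 := Submodule.finrank_mono hle
    rw [Submodule.finrank_map_subtype_eq] at h1
    exact h1.trans hr2
  · rw [hWm]
    exact hm

end Cfsg.Agent.Lib.Helper10.MPFIXB
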