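import Mathlib
import Cfsg.Agent.Lib.Helper41.OFStmt

/-!
# S5977 / EIGM

An isometry `x` of the split form with `x * x = -1`: an orthogonal basis `u j, x (u j)`.
-/

set_option autoImplicit false

namespace Cfsg.Agent.Lib.Helper10.OFEIGM

open Matrix
open Cfsg.Agent.Lib.Helper41.SpFStmt (Mat)
open Cfsg.Agent.Lib.Helper41.OFStmt

universe u

section abstract

variable {F : Type u} [Field F] {V : Type u} [AddCommGroup V] [Module F V]

theorem skew (B : LinearMap.BilinForm F V) (X : V →ₗ[F] V)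
    (hiso : ∀ a b, B (X a) (X b) = B a b) (hXX : ∀ a, X (X a) = -a) (a b : V) :
    B a (X b) = -B (X a) b := by
  have h := hiso a (X b)
  rw [hXX, map_neg] at h
  exact h.symm

theorem self_zero (h2 : (2 : F) ≠ 0) (B : LinearMap.BilinForm F V) (X : V →ₗ[F] V)
    (hsym : ∀ a b, B a b = B b a)
    (hiso : ∀ a b, B (X a) (X b) = B a b) (hXX : ∀ a, X (X a) = -a) (a : V) :
    B a (X a) = 0 := by
  have h := skew B X hiso hXX a a
  rw [hsym (X a) a] at h
  have h' : (2 : F) * B a (X a) = 0 := by linear_combination h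
  exact (mul_eq_zero.mp h').resolve_left h2

theorem exists_next [FiniteDimensional F V] (h2 : (2 : F) ≠ 0)
    (B : LinearMap.BilinForm F V) (X : V →ₗ[F] V)
    (hsym : ∀ a b, B a b = B b a) (hnd : ∀ a, (∀ b, B a b = 0) → a = 0)
    (hiso : ∀ a b, B (X a) (X b) = B a b)
    (n : ℕ) (u : Fin n → V) (D : Fin n → F) (hD : ∀ j, D j ≠ 0)
    (h1 : ∀ i j, B (u i) (u j) = if i = j then D i else 0)
    (h2' : ∀ i j, B (u i) (X (u j)) = 0) (hn : 2 * n < Module.finrank F V) :
    ∃ w, B w w ≠ 0 ∧ (∀ j, B (u j) w = 0) ∧ (∀ j, B (X (u j)) w = 0) := by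
  classical
  by_contra hcon
  have hcon' : ∀ w, (∀ j, B (u j) w = 0) → (∀ j, B (X (u j)) w = 0) → B w w = 0 := by
    intro w ha hb
    by_contra hne
    exact hcon ⟨w, hne, ha, hb⟩
  have h3 : ∀ i j, B (X (u i)) (u j) = 0 := fun i j => by rw [hsym]; exact h2' j i
  have h4 : ∀ i j, B (X (u i)) (X (u j)) = if i = j then D i else 0 := fun i j => by
    rw [hiso]; exact h1 i j
  obtain ⟨π, hπdef⟩ : ∃ π : V → V, ∀ v, π v =
      v - ∑ j, (B (u j) v / D j) • u j - ∑ j, (B (X (u j)) v / D j) • X (u j) := ⟨_, fun _ => rfl⟩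
  have hπ1 : ∀ v i, B (u i) (π v) = 0 := by
    intro v i
    rw [hπdef, map_sub, map_sub, map_sum, map_sum]
    simp only [map_smul, smul_eq_mul, h1, h2', mul_zero, Finset.sum_const_zero, sub_zero,
      mul_ite, Finset.sum_ite_eq, Finset.mem_univ, if_true]
    rw [div_mul_cancel₀ _ (hD i), sub_self]
  have hπ2 : ∀ v i, B (X (u i)) (π v) = 0 := by
    intro v i
    rw [hπdef, map_sub, map_sub, map_sum, map_sum]
    simp only [map_smul, smul_eq_mul, h3, h4, mul_zero, Finset.sum_const_zero, sub_zero,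
      mul_ite, Finset.sum_ite_eq, Finset.mem_univ, if_true]
    rw [div_mul_cancel₀ _ (hD i), sub_self]
  have hπ3 : ∀ v v', B (π v) (π v') = 0 := by
    intro v v'
    have a := hcon' (π v + π v') (fun j => by rw [map_add, hπ1, hπ1, add_zero])
      (fun j => by rw [map_add, hπ2, hπ2, add_zero])
    have b := hcon' (π v) (hπ1 v) (hπ2 v)
    have c := hcon' (π v') (hπ1 v') (hπ2 v')
    simp only [map_add, LinearMap.add_apply] at a
    rw [hsym (π v') (π v)] at a
    have h' : (2 : F) * B (π v) (π v') = 0 := by linear_combination a - b - c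
    exact (mul_eq_zero.mp h').resolve_left h2
  have hπ4 : ∀ v v', B (π v) v' = 0 := by
    intro v v'
    have hv' : v' = π v' + (∑ j, (B (u j) v' / D j) • u j +
        ∑ j, (B (X (u j)) v' / D j) • X (u j)) := by
      rw [hπdef]; abel
    have e := congrArg (B (π v)) hv'
    rw [e, map_add, hπ3, map_add, map_sum, map_sum, zero_add]
    have e1 : ∀ j, B (π v) (u j) = 0 := fun j => by rw [hsym]; exact hπ1 v j
    have e2 : ∀ j, B (π v) (X (u j)) = 0 := fun j => by rw [hsym]; exact hπ2 v j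
    simp only [map_smul, smul_eq_mul, e1, e2, mul_zero, Finset.sum_const_zero, add_zero]
  have hπ5 : ∀ v, π v = 0 := fun v => hnd _ (hπ4 v)
  have hspan : ∀ v, v ∈ Submodule.span F (Set.range (Sum.elim u (fun j => X (u j)))) := by
    intro v
    have hv : v = ∑ j, (B (u j) v / D j) • u j + ∑ j, (B (X (u j)) v / D j) • X (u j) := by
      have h := hπ5 v
      rw [hπdef, sub_sub, sub_eq_zero] at h
      exact h
    rw [hv]
    refine Submodule.add_mem _ (Submodule.sum_mem _ fun j _ => Submodule.smul_mem _ _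
      (Submodule.subset_span ⟨Sum.inl j, rfl⟩)) (Submodule.sum_mem _ fun j _ =>
      Submodule.smul_mem _ _ (Submodule.subset_span ⟨Sum.inr j, rfl⟩))
  have htop : Submodule.span F (Set.range (Sum.elim u (fun j => X (u j)))) = ⊤ :=
    eq_top_iff.mpr fun v _ => hspan v
  have hle := finrank_range_le_card (R := F) (Sum.elim u (fun j => X (u j)))
  unfold Set.finrank at hle
  rw [htop, finrank_top, Fintype.card_sum, Fintype.card_fin] at hle
  omega

theorem exists_family [FiniteDimensional F V] (h2 : (2 : F) ≠ 0)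
    (B : LinearMap.BilinForm F V) (X : V →ₗ[F] V)
    (hsym : ∀ a b, B a b = B b a) (hnd : ∀ a, (∀ b, B a b = 0) → a = 0)
    (hiso : ∀ a b, B (X a) (X b) = B a b) (hXX : ∀ a, X (X a) = -a) :
    ∀ n : ℕ, 2 * n ≤ Module.finrank F V → ∃ (u : Fin n → V) (D : Fin n → F),
      (∀ j, D j ≠ 0) ∧ (∀ i j, B (u i) (u j) = if i = j then D i else 0) ∧
      (∀ i j, B (u i) (X (u j)) = 0) := by
  intro n
  induction n with
  | zero =>
    intro _
    exact ⟨Fin.elim0, Fin.elim0, fun j => j.elim0, fun i => i.elim0, fun i => i.elim0⟩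
  | succ n ih =>
    intro hn
    obtain ⟨u, D, hD, h1, h2'⟩ := ih (by omega)
    obtain ⟨w, hw, hw1, hw2⟩ := exists_next h2 B X hsym hnd hiso n u D hD h1 h2' (by omega)
    refine ⟨Fin.snoc (α := fun _ => V) u w, Fin.snoc (α := fun _ => F) D (B w w), ?_, ?_, ?_⟩
    · intro j
      refine Fin.lastCases ?_ (fun j' => ?_) j
      · simp only [Fin.snoc_last]; exact hw
      · simp only [Fin.snoc_castSucc]; exact hD j'
    · intro i j
      refine Fin.lastCases ?_ (fun i' => ?_) i <;> refine Fin.lastCases ?_ (fun j' => ?_) j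
      · simp only [Fin.snoc_last, if_true]
      · simp only [Fin.snoc_last, Fin.snoc_castSucc]
        rw [hsym, hw1, if_neg (Fin.castSucc_lt_last j').ne']
      · simp only [Fin.snoc_last, Fin.snoc_castSucc]
        rw [hw1, if_neg (Fin.castSucc_lt_last i').ne]
      · simp only [Fin.snoc_castSucc, Fin.castSucc_inj]
        exact h1 i' j'
    · intro i j
      refine Fin.lastCases ?_ (fun i' => ?_) i <;> refine Fin.lastCases ?_ (fun j' => ?_) j
      · simp only [Fin.snoc_last]
        exact self_zero h2 B X hsym hiso hXX w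
      · simp only [Fin.snoc_last, Fin.snoc_castSucc]
        rw [hsym]; exact hw2 j'
      · simp only [Fin.snoc_last, Fin.snoc_castSucc]
        rw [skew B X hiso hXX, hw2, neg_zero]
      · simp only [Fin.snoc_castSucc]
        exact h2' i' j'

end abstract

theorem S0_transpose' {F : Type u} [Field F] (d : ℕ) : (S0 d F)ᵀ = S0 d F := by
  unfold S0
  rw [Matrix.fromBlocks_transpose]
  simp

theorem gram_apply {F : Type u} [Field F] {ι κ : Type} [Fintype ι] [Fintype κ]
    (S : Matrix ι ι F) (P : Matrix ι κ F) (c c' : κ) :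
    (Pᵀ * S * P) c c' = (fun i => P i c) ⬝ᵥ (S *ᵥ (fun i => P i c')) := by
  rw [Matrix.mul_assoc]
  rfl

theorem main : EigM.{u} := by
  intro F _ h2 d x hx hxx
  classical
  obtain ⟨S, hSdef⟩ : ∃ S : Mat d F, S = S0 d F := ⟨_, rfl⟩
  rw [← hSdef] at hx ⊢
  have hSt : Sᵀ = S := by rw [hSdef]; exact S0_transpose' d
  have hSS : S * S = 1 := by
    rw [hSdef]; unfold S0
    rw [Matrix.fromBlocks_multiply]
    simp
  have hSdet : S.det ≠ 0 := by
    intro h0
    have h := congrArg Matrix.det hSS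
    rw [Matrix.det_mul, h0, mul_zero, Matrix.det_one] at h
    exact zero_ne_one h
  let B : LinearMap.BilinForm F (Fin d ⊕ Fin d → F) := Matrix.toBilin' S
  let X : (Fin d ⊕ Fin d → F) →ₗ[F] (Fin d ⊕ Fin d → F) := Matrix.toLin' x
  have hB : ∀ a b, B a b = a ⬝ᵥ (S *ᵥ b) := fun a b => Matrix.toBilin'_apply' S a b
  have hX : ∀ a, X a = x *ᵥ a := fun a => Matrix.toLin'_apply x a
  have hsym : ∀ a b, B a b = B b a := by
    intro a b
    have key : a ᵥ* S = S *ᵥ a := by
      conv_lhs => rw [← hSt]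
      exact Matrix.vecMul_transpose S a
    rw [hB, hB, Matrix.dotProduct_mulVec, key, dotProduct_comm]
  have hiso : ∀ a b, B (X a) (X b) = B a b := by
    intro a b
    rw [hB, hB, hX, hX]
    conv_rhs => rw [← hx]
    rw [← Matrix.mulVec_mulVec, ← Matrix.mulVec_mulVec, Matrix.dotProduct_mulVec a xᵀ,
      Matrix.vecMul_transpose]
  have hXX : ∀ a, X (X a) = -a := by
    intro a
    rw [hX, hX, Matrix.mulVec_mulVec, hxx, Matrix.neg_mulVec, Matrix.one_mulVec]
  have hnd : ∀ a, (∀ b, B a b = 0) → a = 0 := by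
    intro a ha
    have h0 : a ᵥ* S = 0 := by
      apply dotProduct_eq_zero
      intro b
      rw [← Matrix.dotProduct_mulVec, ← hB]
      exact ha b
    exact Matrix.eq_zero_of_vecMul_eq_zero hSdet h0
  obtain ⟨u, D, hD, h1, h2'⟩ := exists_family h2 B X hsym hnd hiso hXX d (by
    rw [Module.finrank_fintype_fun_eq_card, Fintype.card_sum, Fintype.card_fin]; omega)
  let U : Matrix (Fin d ⊕ Fin d) (Fin d) F := Matrix.of fun i j => u j i
  let P : Mat d F := Matrix.fromCols U (x * U)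
  have hgram : Pᵀ * S * P = Matrix.fromBlocks (Matrix.diagonal D) 0 0 (Matrix.diagonal D) := by
    ext c c'
    rw [gram_apply]
    rcases c with i | i <;> rcases c' with j | j
    · show u i ⬝ᵥ (S *ᵥ u j) = _
      rw [← hB, h1, Matrix.fromBlocks_apply₁₁, Matrix.diagonal_apply]
    · show u i ⬝ᵥ (S *ᵥ (x *ᵥ u j)) = _
      rw [← hX, ← hB, h2', Matrix.fromBlocks_apply₁₂]
      rfl
    · show (x *ᵥ u i) ⬝ᵥ (S *ᵥ u j) = _
      rw [← hX, ← hB, hsym, h2', Matrix.fromBlocks_apply₂₁]
      rfl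
    · show (x *ᵥ u i) ⬝ᵥ (S *ᵥ (x *ᵥ u j)) = _
      rw [← hX, ← hX, ← hB, hiso, h1, Matrix.fromBlocks_apply₂₂, Matrix.diagonal_apply]
  have hPdet : P.det ≠ 0 := by
    intro h0
    have h := congrArg Matrix.det hgram
    rw [Matrix.det_mul, Matrix.det_mul, h0, mul_zero, Matrix.det_fromBlocks_zero₁₂,
      Matrix.det_diagonal] at h
    have hp : ∏ j, D j ≠ 0 := Finset.prod_ne_zero_iff.mpr fun j _ => hD j
    exact mul_ne_zero hp hp h.symm
  have hPu : IsUnit P.det := isUnit_iff_ne_zero.mpr hPdet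
  refine ⟨P, P⁻¹, D, Matrix.mul_nonsing_inv P hPu, Matrix.nonsing_inv_mul P hPu, hD, hgram, ?_⟩
  show x * Matrix.fromCols U (x * U) = Matrix.fromCols U (x * U) * Matrix.fromBlocks 0 (-1) 1 0
  rw [Matrix.mul_fromCols, Matrix.fromCols_mul_fromBlocks, ← Matrix.mul_assoc, hxx]
  simp

end Cfsg.Agent.Lib.Helper10.OFEIGM
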