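import Mathlib
import Cfsg.Agent.Lib.Helper41.OFStmt
import Cfsg.Agent.Lib.Helper97.OrtCONG

/-!
# S5977 / TRANSPORT

An isometry of a symmetric form of discriminant `(-1)^d` on `Fin (2 * d)` is conjugate to an
isometry of `quadFormPlus d F`.  `main` takes the pieces `OBr` and `DetS0` as hypotheses.
-/

set_option autoImplicit false

namespace Cfsg.Agent.Lib.Helper10.OFTRANSPORT

open Matrix Polynomial
open Cfsg.Agent.Lib.Helper41.SpFStmt (Mat)
open Cfsg.Agent.Lib.Helper41.OFStmt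

universe u

theorem S0_transpose {F : Type u} [Field F] (d : ℕ) : (S0 d F)ᵀ = S0 d F := by
  unfold S0
  rw [Matrix.fromBlocks_transpose]
  simp

theorem main (hOBr : OBr.{u}) (hDet : DetS0.{u}) : Transport.{u} := by
  intro F _ _ h2 d x₁ S₁ μ hS₁ hμ hdet hx₁
  classical
  let e : Fin d ⊕ Fin d ≃ Fin (2 * d) := finSumFinEquiv.trans (finCongr (two_mul d).symm)
  let E : Mat d F ≃ₐ[F] Matrix (Fin (2 * d)) (Fin (2 * d)) F := Matrix.reindexAlgEquiv F F e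
  have hEt : ∀ M : Mat d F, (E M)ᵀ = E Mᵀ := by
    intro M
    show (Matrix.reindex e e M)ᵀ = Matrix.reindex e e Mᵀ
    rw [Matrix.transpose_reindex]
  have hEdet : ∀ M : Mat d F, (E M).det = M.det := by
    intro M
    show (Matrix.reindex e e M).det = M.det
    rw [Matrix.det_reindex_self]
  have hEcp : ∀ M : Mat d F, (E M).charpoly = M.charpoly := by
    intro M
    show (Matrix.reindex e e M).charpoly = M.charpoly
    rw [Matrix.charpoly_reindex]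
  have hS0' : (E (S0 d F))ᵀ = E (S0 d F) := by rw [hEt, S0_transpose]
  have hS1det : S₁.det ≠ 0 := by
    rw [hdet]
    exact mul_ne_zero (pow_ne_zero _ (neg_ne_zero.mpr one_ne_zero)) (pow_ne_zero _ hμ)
  have hd0 : (E (S0 d F)).det = S₁.det * μ⁻¹ ^ 2 := by
    rw [hEdet, hDet, hdet]
    field_simp
  obtain ⟨g, hg, hgS⟩ := Cfsg.Agent.Lib.Helper97.OrtCONG.main F h2 (2 * d) S₁ (E (S0 d F)) hS₁
    hS1det hS0' μ⁻¹ (inv_ne_zero hμ) hd0
  have hgu : IsUnit g.det := isUnit_iff_ne_zero.mpr hg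
  have hgg : g * g⁻¹ = 1 := Matrix.mul_nonsing_inv g hgu
  have hgg' : g⁻¹ * g = 1 := Matrix.nonsing_inv_mul g hgu
  have hgti : (g⁻¹)ᵀ * gᵀ = 1 := by rw [← Matrix.transpose_mul, hgg, Matrix.transpose_one]
  let y : Matrix (Fin (2 * d)) (Fin (2 * d)) F := g⁻¹ * x₁ * g
  have hy : yᵀ * E (S0 d F) * y = E (S0 d F) := by
    show (g⁻¹ * x₁ * g)ᵀ * E (S0 d F) * (g⁻¹ * x₁ * g) = E (S0 d F)
    rw [← hgS, Matrix.transpose_mul, Matrix.transpose_mul]
    calc gᵀ * (x₁ᵀ * (g⁻¹)ᵀ) * (gᵀ * S₁ * g) * (g⁻¹ * x₁ * g)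
        = gᵀ * (x₁ᵀ * ((g⁻¹)ᵀ * gᵀ) * S₁ * (g * g⁻¹) * x₁) * g := by
          simp only [Matrix.mul_assoc]
      _ = gᵀ * (x₁ᵀ * S₁ * x₁) * g := by rw [hgti, hgg, Matrix.mul_one, Matrix.mul_one]
      _ = gᵀ * S₁ * g := by rw [hx₁]
  let x : Mat d F := E.symm y
  have hEx : E x = y := E.apply_symm_apply y
  have hx : xᵀ * S0 d F * x = S0 d F := by
    apply E.injective
    rw [map_mul, map_mul, ← hEt, hEx, hy]
  have hS0det : (S0 d F).det ≠ 0 := by
    rw [hDet]; exact pow_ne_zero _ (neg_ne_zero.mpr one_ne_zero)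
  have hxdet : x.det ≠ 0 := by
    intro h0
    have h1 := congrArg Matrix.det hx
    rw [Matrix.det_mul, Matrix.det_mul, h0, mul_zero] at h1
    exact hS0det h1.symm
  let X : GL (Fin d ⊕ Fin d) F := Matrix.GeneralLinearGroup.mkOfDetNeZero x hxdet
  have hXv : X.val = x := rfl
  have hpow : ∀ n : ℕ, y ^ n = g⁻¹ * x₁ ^ n * g := by
    intro n
    induction n with
    | zero => rw [pow_zero, pow_zero, Matrix.mul_one, hgg']
    | succ n ih =>
      rw [pow_succ, ih, pow_succ]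
      show g⁻¹ * x₁ ^ n * g * (g⁻¹ * x₁ * g) = g⁻¹ * (x₁ ^ n * x₁) * g
      calc g⁻¹ * x₁ ^ n * g * (g⁻¹ * x₁ * g) = g⁻¹ * x₁ ^ n * (g * g⁻¹) * x₁ * g := by
            simp only [Matrix.mul_assoc]
        _ = g⁻¹ * (x₁ ^ n * x₁) * g := by rw [hgg, Matrix.mul_one]; simp only [Matrix.mul_assoc]
  refine ⟨X, (hOBr h2 d X).mpr (by rw [hXv]; exact hx), ?_, ?_, ?_⟩
  · rw [hXv, ← hEcp, hEx]
    show (g⁻¹ * x₁ * g).charpoly = x₁.charpoly
    have hc := Matrix.charpoly_mul_comm (g⁻¹ * x₁) g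
    rw [hc, ← Matrix.mul_assoc, hgg, Matrix.one_mul]
  · intro n hn
    rw [hXv]
    apply E.injective
    rw [map_pow, hEx, hpow, hn, Matrix.mul_one, hgg', map_one]
  · intro hns z hz
    rw [hXv] at hz
    apply hns z
    have h1 : y = z • 1 := by rw [← hEx, hz, map_smul, map_one]
    have h2 : g * y * g⁻¹ = x₁ := by
      show g * (g⁻¹ * x₁ * g) * g⁻¹ = x₁
      calc g * (g⁻¹ * x₁ * g) * g⁻¹ = (g * g⁻¹) * x₁ * (g * g⁻¹) := by
            simp only [Matrix.mul_assoc]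
        _ = x₁ := by rw [hgg, Matrix.one_mul, Matrix.mul_one]
    rw [← h2, h1, Matrix.mul_smul, Matrix.mul_one, Matrix.smul_mul, hgg]

end Cfsg.Agent.Lib.Helper10.OFTRANSPORT
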