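import Mathlib
import Cfsg.Agent.Lib.Helper41.OMStmt
import Cfsg.Agent.Lib.Helper10.OFEIGM

/-!
# S5978 / EIGMG

An isometry `x` of a non-degenerate symmetric form `S` (any index type) with `x * x = -1`: an
orthogonal basis `u j, x (u j)`.
-/

set_option autoImplicit false

namespace Cfsg.Agent.Lib.Helper10.OMEIGMG

open Matrix
open Cfsg.Agent.Lib.Helper41.OMStmt
open Cfsg.Agent.Lib.Helper10.OFEIGM

universe u

theorem exists_family' {F : Type u} [Field F] {V : Type u} [AddCommGroup V] [Module F V]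
    [FiniteDimensional F V] (h2 : (2 : F) ≠ 0)
    (B : LinearMap.BilinForm F V) (X : V →ₗ[F] V)
    (hsym : ∀ a b, B a b = B b a) (hnd : ∀ a, (∀ b, B a b = 0) → a = 0)
    (hiso : ∀ a b, B (X a) (X b) = B a b) (hXX : ∀ a, X (X a) = -a) :
    ∀ n : ℕ, 2 * n ≤ Module.finrank F V + 1 → ∃ (u : Fin n → V) (D : Fin n → F),
      (∀ j, D j ≠ 0) ∧ (∀ i j, B (u i) (u j) = if i = j then D i else 0) ∧
      (∀ i j, B (u i) (X (u j)) = 0) := by
  intro n
  induction n with
  | zero =>
    intro _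
    exact ⟨Fin.elim0, Fin.elim0, fun j => j.elim0, fun i => i.elim0, fun i => i.elim0⟩
  | succ n ih =>
    intro hn
    obtain ⟨u, D, hD, h1, h2'⟩ := ih (by omega)
    obtain ⟨w, hw, hw1, hw2⟩ := exists_next h2 B X hsym hnd hiso n u D hD h1 h2' (by omega)
    refine ⟨Fin.snoc (α := fun _ => V) u w, Fin.snoc (α := fun _ => F) D (B w w), ?_, ?_, ?_⟩
    · intro j
      refine Fin.lastCases ?_ (fun j' => ?_) j
      · simp only [Fin.snoc_last]; exact hw
      · simp only [Fin.snoc_castSucc]; exact hD j'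
    · intro i j
      refine Fin.lastCases ?_ (fun i' => ?_) i <;> refine Fin.lastCases ?_ (fun j' => ?_) j
      · simp only [Fin.snoc_last, if_true]
      · simp only [Fin.snoc_last, Fin.snoc_castSucc]
        rw [hsym, hw1, if_neg (Fin.castSucc_lt_last j').ne']
      · simp only [Fin.snoc_last, Fin.snoc_castSucc]
        rw [hw1, if_neg (Fin.castSucc_lt_last i').ne]
      · simp only [Fin.snoc_castSucc, Fin.castSucc_inj]
        exact h1 i' j'
    · intro i j
      refine Fin.lastCases ?_ (fun i' => ?_) i <;> refine Fin.lastCases ?_ (fun j' => ?_) j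
      · simp only [Fin.snoc_last]
        exact self_zero h2 B X hsym hiso hXX w
      · simp only [Fin.snoc_last, Fin.snoc_castSucc]
        rw [hsym]; exact hw2 j'
      · simp only [Fin.snoc_last, Fin.snoc_castSucc]
        rw [skew B X hiso hXX, hw2, neg_zero]
      · simp only [Fin.snoc_castSucc]
        exact h2' i' j'

theorem main : EigMG.{u} := by
  intro F _ h2 ι _ _ S x hSt hSdet hx hxx
  classical
  let B : LinearMap.BilinForm F (ι → F) := Matrix.toBilin' S
  let X : (ι → F) →ₗ[F] (ι → F) := Matrix.toLin' x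
  have hB : ∀ a b, B a b = a ⬝ᵥ (S *ᵥ b) := fun a b => Matrix.toBilin'_apply' S a b
  have hX : ∀ a, X a = x *ᵥ a := fun a => Matrix.toLin'_apply x a
  have hsym : ∀ a b, B a b = B b a := by
    intro a b
    have key : a ᵥ* S = S *ᵥ a := by
      conv_lhs => rw [← hSt]
      exact Matrix.vecMul_transpose S a
    rw [hB, hB, Matrix.dotProduct_mulVec, key, dotProduct_comm]
  have hiso : ∀ a b, B (X a) (X b) = B a b := by
    intro a b
    rw [hB, hB, hX, hX]
    conv_rhs => rw [← hx]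
    rw [← Matrix.mulVec_mulVec, ← Matrix.mulVec_mulVec, Matrix.dotProduct_mulVec a xᵀ,
      Matrix.vecMul_transpose]
  have hXX : ∀ a, X (X a) = -a := by
    intro a
    rw [hX, hX, Matrix.mulVec_mulVec, hxx, Matrix.neg_mulVec, Matrix.one_mulVec]
  have hnd : ∀ a, (∀ b, B a b = 0) → a = 0 := by
    intro a ha
    have h0 : a ᵥ* S = 0 := by
      apply dotProduct_eq_zero
      intro b
      rw [← Matrix.dotProduct_mulVec, ← hB]
      exact ha b
    exact Matrix.eq_zero_of_vecMul_eq_zero hSdet h0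
  have hfin : Module.finrank F (ι → F) = Fintype.card ι := Module.finrank_fintype_fun_eq_card F
  -- the construction for a family of any size
  have build : ∀ (m : ℕ) (u : Fin m → (ι → F)) (D : Fin m → F), (∀ j, D j ≠ 0) →
      (∀ i j, B (u i) (u j) = if i = j then D i else 0) → (∀ i j, B (u i) (X (u j)) = 0) →
      ∃ P : Matrix ι (Fin m ⊕ Fin m) F,
        Pᵀ * S * P = Matrix.fromBlocks (Matrix.diagonal D) 0 0 (Matrix.diagonal D) ∧
        x * P = P * (Matrix.fromBlocks 0 (-1) 1 0 :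
          Matrix (Fin m ⊕ Fin m) (Fin m ⊕ Fin m) F) := by
    intro m u D hD h1 h2'
    let U : Matrix ι (Fin m) F := Matrix.of fun i j => u j i
    let P : Matrix ι (Fin m ⊕ Fin m) F := Matrix.fromCols U (x * U)
    refine ⟨P, ?_, ?_⟩
    · ext c c'
      rw [Cfsg.Agent.Lib.Helper10.OFEIGM.gram_apply]
      rcases c with i | i <;> rcases c' with j | j
      · show u i ⬝ᵥ (S *ᵥ u j) = _
        rw [← hB, h1, Matrix.fromBlocks_apply₁₁, Matrix.diagonal_apply]
      · show u i ⬝ᵥ (S *ᵥ (x *ᵥ u j)) = _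
        rw [← hX, ← hB, h2', Matrix.fromBlocks_apply₁₂]
        rfl
      · show (x *ᵥ u i) ⬝ᵥ (S *ᵥ u j) = _
        rw [← hX, ← hB, hsym, h2', Matrix.fromBlocks_apply₂₁]
        rfl
      · show (x *ᵥ u i) ⬝ᵥ (S *ᵥ (x *ᵥ u j)) = _
        rw [← hX, ← hX, ← hB, hiso, h1, Matrix.fromBlocks_apply₂₂, Matrix.diagonal_apply]
    · show x * Matrix.fromCols U (x * U) = Matrix.fromCols U (x * U) *
        (Matrix.fromBlocks 0 (-1) 1 0 : Matrix (Fin m ⊕ Fin m) (Fin m ⊕ Fin m) F)
      rw [Matrix.mul_fromCols, Matrix.fromCols_mul_fromBlocks, ← Matrix.mul_assoc, hxx]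
      simp
  have hΔ : ∀ (m : ℕ) (D : Fin m → F), (∀ j, D j ≠ 0) →
      (Matrix.fromBlocks (Matrix.diagonal D) 0 0 (Matrix.diagonal D) :
        Matrix (Fin m ⊕ Fin m) (Fin m ⊕ Fin m) F).det ≠ 0 := by
    intro m D hD
    rw [Matrix.det_fromBlocks_zero₁₂, Matrix.det_diagonal]
    have hp : ∏ j, D j ≠ 0 := Finset.prod_ne_zero_iff.mpr fun j _ => hD j
    exact mul_ne_zero hp hp
  -- a family of size `m` satisfies `2 * m ≤ card ι`
  have bound : ∀ (m : ℕ) (u : Fin m → (ι → F)) (D : Fin m → F), (∀ j, D j ≠ 0) →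
      (∀ i j, B (u i) (u j) = if i = j then D i else 0) → (∀ i j, B (u i) (X (u j)) = 0) →
      2 * m ≤ Fintype.card ι := by
    intro m u D hD h1 h2'
    obtain ⟨P, hP, -⟩ := build m u D hD h1 h2'
    have hr : (Pᵀ * S * P).rank = Fintype.card (Fin m ⊕ Fin m) := by
      rw [hP]
      exact Matrix.rank_of_isUnit _ ((Matrix.isUnit_iff_isUnit_det _).mpr
        (isUnit_iff_ne_zero.mpr (hΔ m D hD)))
    have h3 : (Pᵀ * S * P).rank ≤ P.rank := Matrix.rank_mul_le_right _ _
    have h4 : P.rank ≤ Fintype.card ι := Matrix.rank_le_card_height P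
    rw [Fintype.card_sum, Fintype.card_fin] at hr
    omega
  -- the size
  obtain ⟨m, hm⟩ : ∃ m, Fintype.card ι = 2 * m := by
    rcases Nat.even_or_odd' (Fintype.card ι) with ⟨k, hk | hk⟩
    · exact ⟨k, hk⟩
    · exfalso
      obtain ⟨u, D, hD, h1, h2'⟩ := exists_family' h2 B X hsym hnd hiso hXX (k + 1)
        (by rw [hfin]; omega)
      have := bound (k + 1) u D hD h1 h2'
      omega
  obtain ⟨u, D, hD, h1, h2'⟩ := exists_family' h2 B X hsym hnd hiso hXX m (by rw [hfin]; omega)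
  obtain ⟨P, hP, hxP⟩ := build m u D hD h1 h2'
  have hΔu : IsUnit (Matrix.fromBlocks (Matrix.diagonal D) 0 0 (Matrix.diagonal D) :
      Matrix (Fin m ⊕ Fin m) (Fin m ⊕ Fin m) F).det := isUnit_iff_ne_zero.mpr (hΔ m D hD)
  have hP'P : (Matrix.fromBlocks (Matrix.diagonal D) 0 0 (Matrix.diagonal D))⁻¹ * Pᵀ * S * P
      = 1 := by
    rw [Matrix.mul_assoc, Matrix.mul_assoc, ← Matrix.mul_assoc Pᵀ, hP]
    exact Matrix.nonsing_inv_mul _ hΔu
  have hcard : Fintype.card ι = Fintype.card (Fin m ⊕ Fin m) := by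
    rw [Fintype.card_sum, Fintype.card_fin, hm]; ring
  have hPP' : P * ((Matrix.fromBlocks (Matrix.diagonal D) 0 0 (Matrix.diagonal D))⁻¹ * Pᵀ * S)
      = 1 := (Matrix.mul_eq_one_comm_of_equiv (Fintype.equivOfCardEq hcard)).mpr hP'P
  exact ⟨m, P, (Matrix.fromBlocks (Matrix.diagonal D) 0 0 (Matrix.diagonal D))⁻¹ * Pᵀ * S, D,
    hPP', hP'P, hD, hP, hxP⟩

end Cfsg.Agent.Lib.Helper10.OMEIGMG
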