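import Mathlib
import Cfsg.Agent.Lib.Helper10.SWDefs

/-!
# Pushing up a group with `G / O_2(G)` dihedral of order `2q` (S2772)

Setting: `G ≤ H`, `Q = O_2(G)`, `S` a Sylow `2`-subgroup of `G`, `|G : Q| = 2q` with `q` an odd
prime, `C_G(Q) ≤ Q`, and `x ∈ H` normalizes `S` while no nontrivial subgroup of `S` is normalized
by `G` and by `x`.  Then `q = 3` (the module `Ω₁ Z(Q)` is a failure-of-factorization module).
The statements of the pieces of the split proof.
-/

set_option autoImplicit false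

namespace Cfsg.Agent.Lib.Helper10.PUDefs

open Pointwise Cfsg.Agent.Lib.Helper10.SWDefs

universe u

/-- The pushing-up setting. -/
structure PU {H : Type u} [Group H] (G Q S : Subgroup H) (x : H) (q : ℕ) : Prop where
  prime : q.Prime
  odd : q ≠ 2
  hQS : Q ≤ S
  hSG : S ≤ G
  nrm : Nrm G Q
  two : IsPGroup 2 S
  cardG : Nat.card G = 2 * q * Nat.card Q
  cardS : Nat.card S = 2 * Nat.card Q
  maxQ : ∀ N : Subgroup H, N ≤ G → Nrm G N → IsPGroup 2 N → N ≤ Q
  cent : ∀ g ∈ G, (∀ a ∈ Q, g * a = a * g) → g ∈ Q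
  xS : MulAut.conj x • S = S
  noN : ∀ N : Subgroup H, N ≤ S → Nrm G N → MulAut.conj x • N = N → N = ⊥

/-- The conclusion of FF1: `C_G(Ω₁ Z(Q)) ≤ Q`. -/
def CentW {H : Type u} [Group H] (G Q : Subgroup H) : Prop :=
  ∀ g ∈ G, (∀ w ∈ OZ Q, g * w = w * g) → g ∈ Q

/-- The conclusion of FF2: an involution of `S` outside `Q` centralizing a subgroup of index
at most `2` of `Ω₁ Z(Q)`. -/
def Transv {H : Type u} [Group H] (Q S : Subgroup H) : Prop :=
  ∃ a ∈ S, a ∉ Q ∧ a * a = 1 ∧ ∃ C : Subgroup H, C ≤ OZ Q ∧ C.relIndex (OZ Q) ≤ 2 ∧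
    ∀ c ∈ C, a * c = c * a

/-- The conclusion of FF3a: a subgroup of index at most `4` of `Ω₁ Z(Q)` central in `G`. -/
def Cent4 {H : Type u} [Group H] (G Q : Subgroup H) : Prop :=
  ∃ V₀ : Subgroup H, V₀ ≤ OZ Q ∧ V₀.relIndex (OZ Q) ≤ 4 ∧ ∀ v ∈ V₀, ∀ g ∈ G, g * v = v * g

/-- FF1: `C_G(Ω₁ Z(Q)) ≤ Q`. -/
def StFF1 : Prop :=
  ∀ (H : Type u) [Group H] [Finite H] (G Q S : Subgroup H) (x : H) (q : ℕ), PU G Q S x q →
    CentW G Q

/-- FF2: the Thompson subgroup argument. -/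
def StFF2 : Prop :=
  ∀ (H : Type u) [Group H] [Finite H] (G Q S : Subgroup H) (x : H) (q : ℕ), PU G Q S x q →
    Transv Q S

/-- FF3a: two conjugates of the transvection generate `G` modulo `Q`. -/
def StFF3a : Prop :=
  ∀ (H : Type u) [Group H] [Finite H] (G Q S : Subgroup H) (x : H) (q : ℕ), PU G Q S x q →
    Transv Q S → Cent4 G Q

/-- FF3b: counting the orbits of an element of order `q`. -/
def StFF3b : Prop :=
  ∀ (H : Type u) [Group H] [Finite H] (G Q S : Subgroup H) (x : H) (q : ℕ), PU G Q S x q →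
    CentW G Q → Cent4 G Q → q = 3

/-- CFG: a maximal subgroup of a simple group with a subgroup of index `3` normalized by an
element outside is a Sims–Wong configuration. -/
def StCFG : Prop :=
  ∀ (H : Type u) [Group H] [Finite H] [IsSimpleGroup H] (G S : Subgroup H) (x : H),
    IsCoatom G → S ≤ G → S.relIndex G = 3 → MulAut.conj x • S = S → x ∉ G → Cfg G

/-- Assembly of the FF pieces. -/
theorem q_eq_three (h1 : StFF1.{u}) (h2 : StFF2.{u}) (h3a : StFF3a.{u}) (h3b : StFF3b.{u})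
    {H : Type u} [Group H] [Finite H] {G Q S : Subgroup H} {x : H} {q : ℕ}
    (h : PU G Q S x q) : q = 3 :=
  h3b H G Q S x q h (h1 H G Q S x q h) (h3a H G Q S x q h (h2 H G Q S x q h))

end Cfsg.Agent.Lib.Helper10.PUDefs
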