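import Mathlib
import Cfsg.Prelude.Def_PLocal
import Cfsg.Agent.Lib.Helper10.SWDefs
import Cfsg.Agent.Lib.Helper10.PUDefs
import Cfsg.Agent.Lib.Helper10.SWBase
import Cfsg.Agent.Lib.Helper23.Cores

/-!
# S2772: assembly (transfer from `pCore` / `Sylow` to the abstract pushing-up setting)
-/

set_option autoImplicit false

namespace Cfsg.Agent.Lib.Helper10.PUMain

open Pointwise Cfsg.Agent.Lib.Helper10.SWDefs Cfsg.Agent.Lib.Helper10.PUDefs

universe u

section

variable {H : Type u} [Group H]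

/-- A normal subgroup of `↥G` maps to a subgroup normalized by `G`. -/
theorem nrm_map {G : Subgroup H} (N : Subgroup ↥G) [hN : N.Normal] : Nrm G (N.map G.subtype) := by
  intro p hp
  ext y
  rw [mem_conj_smul]
  constructor
  · rintro ⟨n, hn, hy⟩
    have h1 : (⟨p, hp⟩ : ↥G) * n * (⟨p, hp⟩ : ↥G)⁻¹ ∈ N := hN.conj_mem n hn _
    refine ⟨_, h1, ?_⟩
    simp only [Subgroup.coe_subtype, Subgroup.coe_mul, Subgroup.coe_inv] at hy ⊢
    rw [hy]
    group
  · rintro ⟨n, hn, rfl⟩
    have h1 : (⟨p, hp⟩ : ↥G)⁻¹ * n * (⟨p, hp⟩ : ↥G)⁻¹⁻¹ ∈ N := hN.conj_mem n hn _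
    refine ⟨_, h1, ?_⟩
    simp [mul_assoc]

/-- A subgroup normalized by `G` gives a normal subgroup of `↥G`. -/
theorem normal_subgroupOf_of_nrm {G N : Subgroup H} (h : Nrm G N) : (N.subgroupOf G).Normal := by
  constructor
  intro n hn g
  rw [Subgroup.mem_subgroupOf] at hn ⊢
  have h1 := h g.1 g.2
  have h2 : (g : H) * n * (g : H)⁻¹ ∈ MulAut.conj (g : H) • N := conj_mem_conj_smul hn
  rw [h1] at h2
  simpa using h2

/-- A subgroup of order at most `2` normalized by `G` is centralized by `G`. -/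
theorem central_of_card_le_two [Finite H] {G Q : Subgroup H} (h : Nrm G Q) (hc : Nat.card Q ≤ 2) :
    ∀ g ∈ G, ∀ a ∈ Q, g * a = a * g := by
  intro g hg a ha
  by_cases ha1 : a = 1
  · rw [ha1, mul_one, one_mul]
  have hb : g * a * g⁻¹ ∈ Q := by
    have h2 : g * a * g⁻¹ ∈ MulAut.conj g • Q := conj_mem_conj_smul ha
    rwa [h g hg] at h2
  have hb1 : g * a * g⁻¹ ≠ 1 := by
    intro hh
    apply ha1
    have : a = g⁻¹ * (g * a * g⁻¹) * g := by group
    rw [this, hh]
    group
  by_contra hne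
  have hab : g * a * g⁻¹ ≠ a := by
    intro hh
    apply hne
    calc g * a = g * a * g⁻¹ * g := by group
      _ = a * g := by rw [hh]
  let f : Fin 3 → ↥Q := ![1, ⟨a, ha⟩, ⟨g * a * g⁻¹, hb⟩]
  have hf : Function.Injective f := by
    intro i j hij
    fin_cases i <;> fin_cases j <;> first
      | rfl
      | (exfalso
         simp [f, Subtype.ext_iff] at hij
         first
           | exact ha1 hij
           | exact ha1 hij.symm
           | exact hb1 hij
           | exact hb1 hij.symm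
           | exact hab hij
           | exact hab hij.symm)
  have := Nat.card_le_card_of_injective f hf
  rw [Nat.card_fin] at this
  omega

end

/-- S2772 from the pieces and the Sims–Wong theorem. -/
theorem main (hFF1 : StFF1.{u}) (hFF2 : StFF2.{u}) (hFF3a : StFF3a.{u}) (hFF3b : StFF3b.{u})
    (hCFG : StCFG.{u})
    (hSW : ∀ (H : Type u) [Group H] [Finite H] (G : Subgroup H), Cfg G →
      Nonempty (G ≃* Multiplicative (ZMod 3)) ∨ Nonempty (G ≃* Equiv.Perm (Fin 3)) ∨
      Nonempty (G ≃* DihedralGroup 6) ∨ Nonempty (G ≃* Equiv.Perm (Fin 4)) ∨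
      Nonempty (G ≃* Equiv.Perm (Fin 4) × Multiplicative (ZMod 2)))
    {H : Type u} [Group H] [Finite H] [IsSimpleGroup H] (G : Subgroup H) (hG : IsCoatom G)
    (hchar : Subgroup.centralizer (Cfsg.pCore 2 ↥G : Set ↥G) ≤ Cfsg.pCore 2 ↥G) (S : Sylow 2 ↥G)
    (hN : ¬ Subgroup.normalizer (((S : Subgroup ↥G).map G.subtype : Subgroup H) : Set H) ≤ G)
    (q : ℕ) (hq : q.Prime) (hD : Nonempty (↥G ⧸ Cfsg.pCore 2 ↥G ≃* DihedralGroup q)) :
    Nonempty (↥G ≃* Equiv.Perm (Fin 4)) ∨
      Nonempty (↥G ≃* Equiv.Perm (Fin 4) × Multiplicative (ZMod 2)) := by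
  classical
  have : Fact (Nat.Prime 2) := ⟨Nat.prime_two⟩
  obtain ⟨e⟩ := hD
  have hQ₀p : IsPGroup 2 (Cfsg.pCore 2 ↥G) := Cfsg.Agent.Lib.Helper23.Cores.pCore_isPGroup 2
  have hcq : Nat.card (↥G ⧸ Cfsg.pCore 2 ↥G) = 2 * q := by
    rw [Nat.card_congr e.toEquiv, DihedralGroup.nat_card]
  have hcG : Nat.card G = 2 * q * Nat.card (Cfsg.pCore 2 ↥G) := by
    rw [Subgroup.card_eq_card_quotient_mul_card_subgroup (Cfsg.pCore 2 ↥G), hcq]
  obtain ⟨a, ha⟩ := IsPGroup.iff_card.mp hQ₀p
  have hGpos : 0 < Nat.card G := Nat.card_pos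
  -- `q ≠ 2`
  have hq2 : q ≠ 2 := by
    intro h2
    have h4 : Nat.card G = 2 ^ (a + 2) := by
      rw [hcG, ha, h2]; ring
    have hGp : IsPGroup 2 (⊤ : Subgroup ↥G) := by
      apply IsPGroup.of_card (n := a + 2)
      rw [Subgroup.card_top]; exact h4
    have htop : (⊤ : Subgroup ↥G) ≤ Cfsg.pCore 2 ↥G :=
      Cfsg.Agent.Lib.Helper23.Cores.le_pCore 2 ⊤ inferInstance hGp
    have h5 : Cfsg.pCore 2 ↥G = ⊤ := top_le_iff.mp htop
    rw [h5, Subgroup.card_top, h2] at hcG
    omega
  -- the subgroups of `H`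
  set Q : Subgroup H := (Cfsg.pCore 2 ↥G).map G.subtype with hQ
  set S' : Subgroup H := (S : Subgroup ↥G).map G.subtype with hS'
  have hcQ : Nat.card Q = Nat.card (Cfsg.pCore 2 ↥G) :=
    Subgroup.card_map_of_injective G.subtype_injective
  have hcS0 : Nat.card S' = Nat.card (S : Subgroup ↥G) :=
    Subgroup.card_map_of_injective G.subtype_injective
  have hfac : (Nat.card G).factorization 2 = a + 1 := by
    rw [hcG, ha, Nat.factorization_mul (Nat.mul_ne_zero (by norm_num) hq.ne_zero) (by positivity),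
      Nat.factorization_mul (by norm_num) hq.ne_zero]
    have h1 : q.factorization 2 = 0 := by
      apply Nat.factorization_eq_zero_of_not_dvd
      intro hdvd
      exact hq2 ((Nat.prime_dvd_prime_iff_eq Nat.prime_two hq).mp hdvd).symm
    simp [h1, Nat.Prime.factorization_self Nat.prime_two, Nat.Prime.factorization_pow Nat.prime_two]
    omega
  have hcS : Nat.card S' = 2 * Nat.card Q := by
    rw [hcS0, hcQ, ha, Sylow.card_eq_multiplicity, hfac]; ring
  obtain ⟨x, hxN, hxG⟩ := SetLike.not_le_iff_exists.mp hN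
  have hxS : MulAut.conj x • S' = S' := by
    ext y
    rw [mem_conj_smul]
    have h1 := (Subgroup.mem_normalizer_iff.mp hxN) (x⁻¹ * y * x)
    have h2 : x * (x⁻¹ * y * x) * x⁻¹ = y := by group
    rw [h2] at h1
    exact h1
  have hQS : Q ≤ S' := Subgroup.map_mono (IsPGroup.le_sylow_of_normal hQ₀p S)
  have hSG : S' ≤ G := Subgroup.map_subtype_le _
  have hnrm : Nrm G Q := nrm_map _
  have htwo : IsPGroup 2 S' := S.isPGroup'.map G.subtype
  have hgen : G ⊔ Subgroup.zpowers x = ⊤ := by
    by_contra hne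
    have h1 : G ⊔ Subgroup.zpowers x = G := by
      by_contra h2
      exact hne (hG.2 _ (lt_of_le_of_ne le_sup_left (Ne.symm h2)))
    exact hxG (h1 ▸ (le_sup_right : Subgroup.zpowers x ≤ G ⊔ Subgroup.zpowers x)
      (Subgroup.mem_zpowers x))
  have hPU : PU G Q S' x q := by
    refine ⟨hq, hq2, hQS, hSG, hnrm, htwo, by rw [hcG, hcQ], hcS, ?_, ?_, hxS, ?_⟩
    · intro N hNG hNn hNp
      have := normal_subgroupOf_of_nrm hNn
      have h1 : N.subgroupOf G ≤ Cfsg.pCore 2 ↥G :=
        Cfsg.Agent.Lib.Helper23.Cores.le_pCore 2 _ inferInstance (hNp.comap_subtype)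
      have h2 := Subgroup.map_mono (f := G.subtype) h1
      rwa [Subgroup.map_subgroupOf_eq_of_le hNG] at h2
    · intro g hg hga
      have h1 : (⟨g, hg⟩ : ↥G) ∈ Subgroup.centralizer (Cfsg.pCore 2 ↥G : Set ↥G) := by
        rw [Subgroup.mem_centralizer_iff]
        intro b hb
        have h2 := hga b.1 (Subgroup.mem_map_of_mem G.subtype hb)
        exact Subtype.ext h2.symm
      exact Subgroup.mem_map_of_mem G.subtype (hchar h1)
    · intro N hNS hNn hNx
      have hnorm : Subgroup.normalizer (N : Set H) = ⊤ := by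
        rw [eq_top_iff, ← hgen]
        refine sup_le ?_ ?_
        · intro g hg
          rw [Subgroup.mem_normalizer_iff]
          intro n
          have h1 := hNn g hg
          constructor
          · intro hn
            have h2 : g * n * g⁻¹ ∈ MulAut.conj g • N := conj_mem_conj_smul hn
            rwa [h1] at h2
          · intro hn
            rw [← h1, mem_conj_smul] at hn
            have h3 : g⁻¹ * (g * n * g⁻¹) * g = n := by group
            rwa [h3] at hn
        · rw [Subgroup.zpowers_le, Subgroup.mem_normalizer_iff]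
          intro n
          constructor
          · intro hn
            have h2 : x * n * x⁻¹ ∈ MulAut.conj x • N := conj_mem_conj_smul hn
            rwa [hNx] at h2
          · intro hn
            rw [← hNx, mem_conj_smul] at hn
            have h3 : x⁻¹ * (x * n * x⁻¹) * x = n := by group
            rwa [h3] at hn
      have hNnormal : N.Normal := Subgroup.normalizer_eq_top_iff.mp hnorm
      rcases hNnormal.eq_bot_or_eq_top with h | h
      · exact h
      · exfalso
        apply hG.1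
        rw [eq_top_iff, ← h]
        exact hNS.trans hSG
  have hq3 : q = 3 := q_eq_three hFF1 hFF2 hFF3a hFF3b hPU
  have hcG' : Nat.card G = 6 * Nat.card Q := by rw [hcG, hcQ, hq3]
  have hQpos : 0 < Nat.card Q := Nat.card_pos
  have hrel : S'.relIndex G = 3 := by
    have h1 := Cfsg.Agent.Lib.Helper10.SWBase.card_mul_relIndex hSG
    rw [hcS, hcG'] at h1
    have h2 : S'.relIndex G * (2 * Nat.card Q) = 3 * (2 * Nat.card Q) := by rw [mul_comm, h1]; ring
    exact Nat.eq_of_mul_eq_mul_right (by omega) h2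
  have hcfg : Cfg G := hCFG H G S' x hG hSG hrel hxS hxG
  have hcent : ∀ g ∈ G, (∀ a ∈ Q, g * a = a * g) → g ∈ Q := hPU.cent
  have hsmall : Nat.card Q ≤ 2 → False := by
    intro h2
    have h3 : G ≤ Q := fun g hg => hcent g hg (central_of_card_le_two hnrm h2 g hg)
    have h4 := Subgroup.card_le_of_le h3
    omega
  rcases hSW H G hcfg with ⟨⟨e⟩⟩ | ⟨⟨e⟩⟩ | ⟨⟨e⟩⟩ | h | h
  · exfalso
    have h1 : Nat.card G = 3 := by
      rw [Nat.card_congr e.toEquiv]
      simp [Nat.card_eq_fintype_card, ZMod.card]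
    omega
  · exfalso
    have h1 : Nat.card G = 6 := by
      rw [Nat.card_congr e.toEquiv]
      simp [Nat.card_eq_fintype_card, Fintype.card_perm]
      rfl
    exact hsmall (by omega)
  · exfalso
    have h1 : Nat.card G = 12 := by
      rw [Nat.card_congr e.toEquiv, DihedralGroup.nat_card]
    exact hsmall (by omega)
  · exact Or.inl h
  · exact Or.inr h

end Cfsg.Agent.Lib.Helper10.PUMain
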