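import Mathlib
import Cfsg.Agent.Lib.Helper18.ReeMultStmt

/-!
# S2113 / ZZ (and shared tools for ZU0, U0U0, ZT)

Lifts of `x 0 0 v`, `x 0 0 v'` commute.
-/

set_option autoImplicit false

namespace Cfsg.Agent.Lib.Helper10.ReeMultZZ

open Cfsg.Agent.Lib.Helper18
open Cfsg.Agent.Lib.Helper18.ReeMultStmt

universe u v w

section tools

variable {Γ : Type w} [Group Γ] {G : Type u} [Group G] {K : Type v} [Field K] [Fintype K] {m : ℕ}
  {φ : K →+* K} {x : K → K → K → G} {e : K → G} {σ : Γ →* G}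

theorem x_mul0 (P : ReeOutStmt.OPar G K m φ x e) (u v u' v' : K) :
    x 0 u v * x 0 u' v' = x 0 (u + u') (v + v') := by
  rw [P.x_mul]
  simp

theorem x00_mul (P : ReeOutStmt.OPar G K m φ x e) (v v' : K) :
    x 0 0 v * x 0 0 v' = x 0 0 (v + v') := by
  rw [x_mul0 P, add_zero]

theorem x0u0_mul (P : ReeOutStmt.OPar G K m φ x e) (u u' : K) :
    x 0 u 0 * x 0 u' 0 = x 0 (u + u') 0 := by
  rw [x_mul0 P, add_zero]

theorem x_comm0 (P : ReeOutStmt.OPar G K m φ x e) (u v u' v' : K) :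
    x 0 u v * x 0 u' v' = x 0 u' v' * x 0 u v := by
  rw [x_mul0 P, x_mul0 P, add_comm u, add_comm v]

theorem e_conj (P : ReeOutStmt.OPar G K m φ x e) (s : K) (hs : s ≠ 0) (t u v : K) :
    e s * x t u v * (e s)⁻¹ = x (s ^ 2 / φ s ^ 3 * t) (φ s ^ 3 / s * u) (s * v) := by
  rw [P.e_x s hs, mul_inv_cancel_right]

theorem cm_inv_e (E : Ext Γ G K m φ x e σ) (s : K) {a b : G} (h : a * b = b * a) :
    cm σ E.surj (e s * a * (e s)⁻¹) (e s * b * (e s)⁻¹) = cm σ E.surj a b := by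
  have h1 := conj_cm σ E.surj E.cen (sec σ E.surj (e s)) a b
  rw [sec_spec] at h1
  rw [← h1, cm_central σ E.surj E.cen h, mul_inv_cancel_right]

theorem cm_cen (E : Ext Γ G K m φ x e σ) {a b : G} (h : a * b = b * a) :
    cm σ E.surj a b ∈ Subgroup.center Γ := E.cen (cm_mem_ker σ E.surj h)

end tools

open scoped IsMulCommutative in
/-- `SQFORM` for maps into the centre of a group -/
theorem sqform' (hSQ : SQFORM.{v, w}) {K : Type v} [Field K] {Γ : Type w} [Group Γ]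
    (B : K → K → Γ) (hcen : ∀ a b, B a b ∈ Subgroup.center Γ) (h3 : (3 : K) = 0)
    (hr : ∃ r : K, r ≠ 0 ∧ r ^ 8 ≠ 1)
    (h1 : ∀ a a' b, B (a + a') b = B a b * B a' b) (h2 : ∀ a b b', B a (b + b') = B a b * B a b')
    (hinv : ∀ r a b, r ≠ 0 → B (r ^ 2 * a) (r ^ 2 * b) = B a b) : ∀ a b, B a b = 1 := by
  intro a b
  have := hSQ K (Subgroup.center Γ) (fun a b => ⟨B a b, hcen a b⟩) h3 hr
    (fun a a' b => Subtype.ext (h1 a a' b)) (fun a b b' => Subtype.ext (h2 a b b'))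
    (fun r a b hr0 => Subtype.ext (hinv r a b hr0)) a b
  exact congrArg Subtype.val this

open scoped IsMulCommutative in
/-- `MIXFORM` for maps into the centre of a group -/
theorem mixform' (hMIX : MIXFORM.{v, w}) {K : Type v} [Field K] (φ : K →+* K) {Γ : Type w}
    [Group Γ] (B : K → K → Γ) (hcen : ∀ a b, B a b ∈ Subgroup.center Γ) (h3 : (3 : K) = 0)
    (hφ : ∀ t, φ (φ t) ^ 3 = t) (hs : ∃ s : K, s ^ 3 ≠ s)
    (h1 : ∀ a a' b, B (a + a') b = B a b * B a' b) (h2 : ∀ a b b', B a (b + b') = B a b * B a b')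
    (hinv : ∀ s a b, s ≠ 0 → B (s * a) (s ^ 2 / φ s ^ 3 * b) = B a b) : ∀ a b, B a b = 1 := by
  intro a b
  have := hMIX K φ (Subgroup.center Γ) (fun a b => ⟨B a b, hcen a b⟩) h3 hφ hs
    (fun a a' b => Subtype.ext (h1 a a' b)) (fun a b b' => Subtype.ext (h2 a b b'))
    (fun r a b hr0 => Subtype.ext (hinv r a b hr0)) a b
  exact congrArg Subtype.val this

theorem main (hSQ : SQFORM.{v, w}) (hEXR : EXR.{v}) : ZZ.{u, v, w} := by
  intro Γ _ G _ K _ _ m φ x e σ E v v'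
  have P := E.par
  obtain ⟨r, hr0, hr8, -⟩ := hEXR K m P.hm P.cardK
  have hcomm : ∀ a b : K, x 0 0 a * x 0 0 b = x 0 0 b * x 0 0 a := fun a b => x_comm0 P 0 a 0 b
  refine sqform' hSQ (fun a b => cm σ E.surj (x 0 0 a) (x 0 0 b)) (fun a b => cm_cen E (hcomm a b))
    P.char3 ⟨r, hr0, hr8⟩ ?_ ?_ ?_ v v'
  · intro a a' b
    show cm σ E.surj (x 0 0 (a + a')) (x 0 0 b) =
      cm σ E.surj (x 0 0 a) (x 0 0 b) * cm σ E.surj (x 0 0 a') (x 0 0 b)
    rw [← cm_mul_left_c σ E.surj E.cen (hcomm a' b), x00_mul P]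
  · intro a b b'
    show cm σ E.surj (x 0 0 a) (x 0 0 (b + b')) =
      cm σ E.surj (x 0 0 a) (x 0 0 b) * cm σ E.surj (x 0 0 a) (x 0 0 b')
    rw [← cm_mul_right_c σ E.surj E.cen (hcomm a b'), x00_mul P]
  · intro s a b hs0
    show cm σ E.surj (x 0 0 (s ^ 2 * a)) (x 0 0 (s ^ 2 * b)) =
      cm σ E.surj (x 0 0 a) (x 0 0 b)
    have h := cm_inv_e E (s ^ 2) (hcomm a b)
    rw [e_conj P _ (pow_ne_zero 2 hs0), e_conj P _ (pow_ne_zero 2 hs0)] at h
    simp only [mul_zero] at h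
    exact h

end Cfsg.Agent.Lib.Helper10.ReeMultZZ
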