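import Mathlib
import Cfsg.Agent.Lib.Helper18.ReeMultStmt
import Cfsg.Agent.Lib.Helper10.ReeMultZZ

/-!
# S2113 / ZU0

Lifts of `x 0 0 v`, `x 0 u 0` commute (the involution `e (-1)`).
-/

set_option autoImplicit false

namespace Cfsg.Agent.Lib.Helper10.ReeMultZU0

open Cfsg.Agent.Lib.Helper18
open Cfsg.Agent.Lib.Helper18.ReeMultStmt
open Cfsg.Agent.Lib.Helper10.ReeMultZZ

universe u v w

theorem main : ZU0.{u, v, w} := by
  intro Γ _ G _ K _ _ m φ x e σ E v u
  have P := E.par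
  have hcomm : ∀ a b : K, x 0 0 a * x 0 b 0 = x 0 b 0 * x 0 0 a := fun a b => x_comm0 P 0 a b 0
  have hadd : ∀ a a' b, cm σ E.surj (x 0 0 (a + a')) (x 0 b 0) =
      cm σ E.surj (x 0 0 a) (x 0 b 0) * cm σ E.surj (x 0 0 a') (x 0 b 0) := by
    intro a a' b
    rw [← cm_mul_left_c σ E.surj E.cen (hcomm a' b), x00_mul P]
  have hneg : ∀ a b, cm σ E.surj (x 0 0 (-a)) (x 0 b 0) = cm σ E.surj (x 0 0 a) (x 0 b 0) := by
    intro a b
    have hm1 : (-1 : K) ≠ 0 := neg_ne_zero.mpr one_ne_zero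
    have h := cm_inv_e E (-1) (hcomm a b)
    rw [e_conj P _ hm1, e_conj P _ hm1] at h
    have h1 : φ (-1) ^ 3 / (-1 : K) = 1 := by
      rw [map_neg, map_one]; norm_num
    simp only [mul_zero, h1, one_mul, neg_one_mul] at h
    exact h
  have hzero : ∀ b, cm σ E.surj (x 0 0 0) (x 0 b 0) = 1 := by
    intro b
    have h := hadd 0 0 b
    rw [add_zero] at h
    have h' : cm σ E.surj (x 0 0 0) (x 0 b 0) * 1 =
        cm σ E.surj (x 0 0 0) (x 0 b 0) * cm σ E.surj (x 0 0 0) (x 0 b 0) := by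
      rw [mul_one]; exact h
    exact (mul_left_cancel h').symm
  have hsq : cm σ E.surj (x 0 0 v) (x 0 u 0) * cm σ E.surj (x 0 0 v) (x 0 u 0) = 1 := by
    have h := hadd v (-v) u
    rw [add_neg_cancel, hzero, hneg] at h
    exact h.symm
  have hcube : cm σ E.surj (x 0 0 v) (x 0 u 0) * cm σ E.surj (x 0 0 v) (x 0 u 0) *
      cm σ E.surj (x 0 0 v) (x 0 u 0) = 1 := by
    rw [← hadd, ← hadd]
    have h3 : v + v + v = 0 := by
      have h3' : v + v + v = 3 * v := by ring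
      rw [h3', P.char3, zero_mul]
    rw [h3, hzero]
  rw [hsq, one_mul] at hcube
  exact hcube

end Cfsg.Agent.Lib.Helper10.ReeMultZU0
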