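import Mathlib
import Cfsg.Agent.Lib.Helper41.SpFStmt

set_option autoImplicit false

namespace Cfsg.Agent.Lib.Helper10.SpFIDXARITH

universe u

/-- Splitting the product over `j < k m'` according to `k ∣ j + 1`. -/
theorem prod_split (q k m' : ℕ) (hk : 1 ≤ k) :
    ∏ j ∈ Finset.range (k * m'), (q ^ (2 * (j + 1)) - 1) =
      (∏ j ∈ Finset.range m', ((q ^ k) ^ (2 * (j + 1)) - 1)) *
        ∏ j ∈ (Finset.range (k * m')).filter (fun j => ¬ k ∣ j + 1), (q ^ (2 * (j + 1)) - 1) := by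
  rw [← Finset.prod_filter_mul_prod_filter_not (Finset.range (k * m')) (fun j => k ∣ j + 1)]
  congr 1
  have himg : (Finset.range (k * m')).filter (fun j => k ∣ j + 1) =
      (Finset.range m').image (fun j' => k * (j' + 1) - 1) := by
    ext j
    simp only [Finset.mem_filter, Finset.mem_range, Finset.mem_image]
    constructor
    · rintro ⟨hj, c, hc⟩
      have hc1 : 1 ≤ c := by
        rcases Nat.eq_zero_or_pos c with h | h
        · rw [h, mul_zero] at hc
          omega
        · exact h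
      have hcm : c ≤ m' := by
        by_contra hcon
        have h1 : k * (m' + 1) ≤ k * c := Nat.mul_le_mul_left k (by omega)
        have h2 : k * (m' + 1) = k * m' + k := by ring
        omega
      refine ⟨c - 1, by omega, ?_⟩
      have h3 : c - 1 + 1 = c := by omega
      rw [h3, ← hc]
      omega
    · rintro ⟨j', hj', rfl⟩
      have h1 : k * (j' + 1) ≤ k * m' := Nat.mul_le_mul_left k (by omega)
      have h2 : 1 ≤ k * (j' + 1) := Nat.mul_pos (by omega) (by omega)
      refine ⟨by omega, ?_⟩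
      have h3 : k * (j' + 1) - 1 + 1 = k * (j' + 1) := by omega
      rw [h3]
      exact Dvd.intro _ rfl
  rw [himg, Finset.prod_image]
  · apply Finset.prod_congr rfl
    intro j' _
    have h2 : 1 ≤ k * (j' + 1) := Nat.mul_pos (by omega) (by omega)
    have h3 : k * (j' + 1) - 1 + 1 = k * (j' + 1) := by omega
    rw [h3, ← pow_mul]
    congr 2
    ring
  · intro a _ b _ hab
    dsimp only at hab
    have h2a : 1 ≤ k * (a + 1) := Nat.mul_pos (by omega) (by omega)
    have h2b : 1 ≤ k * (b + 1) := Nat.mul_pos (by omega) (by omega)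
    have h4 : k * (a + 1) = k * (b + 1) := by omega
    have h5 := Nat.eq_of_mul_eq_mul_left (by omega : 0 < k) h4
    omega

theorem main : Cfsg.Agent.Lib.Helper41.SpFStmt.IdxArith := by
  intro q d k m' r hq hr hrq hk hd hkord N hBN hNA
  subst hd
  haveI : Fact r.Prime := ⟨hr⟩
  have hpos : ∀ n : ℕ, 1 ≤ n → 1 ≤ q ^ n - 1 := by
    intro n hn
    have h1 : 1 < q ^ n := Nat.one_lt_pow (by omega) (by omega)
    omega
  obtain ⟨P, hP⟩ : ∃ P, P = ∏ j ∈ Finset.range m', ((q ^ k) ^ (2 * (j + 1)) - 1) := ⟨_, rfl⟩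
  obtain ⟨C, hC⟩ : ∃ C, C = ∏ j ∈ (Finset.range (k * m')).filter (fun j => ¬ k ∣ j + 1),
      (q ^ (2 * (j + 1)) - 1) := ⟨_, rfl⟩
  have hsplit : ∏ j ∈ Finset.range (k * m'), (q ^ (2 * (j + 1)) - 1) = P * C := by
    rw [hP, hC]
    exact prod_split q k m' hk
  have hPpos : 0 < P := by
    rw [hP]
    apply Finset.prod_pos
    intro j _
    rw [← pow_mul]
    have := hpos (k * (2 * (j + 1))) (Nat.mul_pos (by omega) (by omega))
    omega
  have hCpos : 0 < C := by
    rw [hC]
    apply Finset.prod_pos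
    intro j _
    have := hpos (2 * (j + 1)) (by omega)
    omega
  have hrC : ¬ r ∣ C := by
    intro h
    rw [hC] at h
    obtain ⟨j, hj, hdvd⟩ := (Prime.dvd_finset_prod_iff hr.prime _).mp h
    rw [Finset.mem_filter] at hj
    apply hj.2
    have h1 : ((q ^ (2 * (j + 1)) - 1 : ℕ) : ZMod r) = 0 := (ZMod.natCast_eq_zero_iff _ _).mpr hdvd
    have h2 : 1 ≤ q ^ (2 * (j + 1)) := Nat.one_le_pow _ _ (by omega)
    rw [Nat.cast_sub h2, Nat.cast_pow, Nat.cast_one, sub_eq_zero, pow_mul] at h1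
    exact hkord.trans (orderOf_dvd_of_pow_eq_one h1)
  have hrq' : ∀ n : ℕ, ¬ r ∣ q ^ n := fun n h => hrq (hr.dvd_of_dvd_pow h)
  rw [hsplit] at hNA ⊢
  rw [← hP] at hBN
  obtain ⟨t, ht⟩ := hNA
  obtain ⟨s, hs⟩ := hBN
  have hApos : 0 < q ^ ((k * m') ^ 2) * (P * C) :=
    Nat.mul_pos (Nat.pow_pos (by omega)) (Nat.mul_pos hPpos hCpos)
  have hNpos : 0 < N := by
    rcases Nat.eq_zero_or_pos N with h | h
    · rw [h, zero_mul] at ht
      omega
    · exact h
  have hdiv : q ^ ((k * m') ^ 2) * (P * C) / N = t := by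
    rw [ht]
    exact Nat.mul_div_cancel_left t hNpos
  rw [hdiv]
  intro hrt
  have hkey : P * (q ^ ((k * m') ^ 2) * C) = P * ((q ^ k) ^ (m' ^ 2) * s * t) := by
    calc P * (q ^ ((k * m') ^ 2) * C) = q ^ ((k * m') ^ 2) * (P * C) := by ring
      _ = N * t := ht
      _ = (q ^ k) ^ (m' ^ 2) * P * s * t := by rw [hs]
      _ = P * ((q ^ k) ^ (m' ^ 2) * s * t) := by ring
  have hkey2 := Nat.eq_of_mul_eq_mul_left hPpos hkey
  have hr2 : r ∣ q ^ ((k * m') ^ 2) * C := by
    rw [hkey2]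
    exact Dvd.dvd.mul_left hrt _
  rcases (Nat.Prime.dvd_mul hr).mp hr2 with h | h
  · exact hrq' _ h
  · exact hrC h

end Cfsg.Agent.Lib.Helper10.SpFIDXARITH
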