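import Mathlib
import Cfsg.Agent.Lib.Helper41.SpFStmt

set_option autoImplicit false

namespace Cfsg.Agent.Lib.Helper10.SpFINVELT

open Matrix
open Cfsg.Agent.Lib.Helper40.SympConj (sadj)

universe u

theorem main : Cfsg.Agent.Lib.Helper41.SpFStmt.InvElt.{u} := by
  intro F _ d hd h2
  classical
  have hd0 : 0 < d := by omega
  have hd1 : 1 < d := by omega
  obtain ⟨u, hu⟩ : ∃ u : Fin d → F, u = fun i => if i = ⟨0, hd0⟩ then (-1 : F) else 1 :=
    ⟨_, rfl⟩
  have huu : ∀ i, u i * u i = 1 := by
    intro i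
    rw [hu]
    dsimp only
    split_ifs <;> ring
  have hDD : Matrix.diagonal u * Matrix.diagonal u = (1 : Matrix (Fin d) (Fin d) F) := by
    rw [Matrix.diagonal_mul_diagonal, ← Matrix.diagonal_one]
    congr 1
    funext i
    exact huu i
  obtain ⟨x, hx⟩ : ∃ x : Matrix (Fin d ⊕ Fin d) (Fin d ⊕ Fin d) F,
      x = Matrix.fromBlocks (Matrix.diagonal u) 0 0 (Matrix.diagonal u) := ⟨_, rfl⟩
  have hxd : x = Matrix.diagonal (Sum.elim u u) := by
    rw [hx, Matrix.fromBlocks_diagonal]
  have hxx : x * x = 1 := by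
    rw [hx, Matrix.fromBlocks_multiply]
    simp only [Matrix.mul_zero, Matrix.zero_mul, add_zero, zero_add, hDD]
    exact Matrix.fromBlocks_one
  have hmem : x ∈ Matrix.symplecticGroup (Fin d) F := by
    rw [SymplecticGroup.mem_iff, hx, Matrix.J, Matrix.fromBlocks_transpose,
      Matrix.fromBlocks_multiply, Matrix.fromBlocks_multiply]
    simp only [Matrix.mul_zero, Matrix.zero_mul, add_zero, zero_add, Matrix.mul_one,
      Matrix.diagonal_transpose, Matrix.transpose_zero, Matrix.mul_neg, Matrix.neg_mul, hDD,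
      neg_zero]
  refine ⟨x, (Cfsg.Agent.Lib.Helper40.SympConj.mem_symp_iff _).mp hmem, hxx, ?_, ?_⟩
  · intro z hz
    have h0 := congrFun (congrFun hz (Sum.inl ⟨0, hd0⟩)) (Sum.inl ⟨0, hd0⟩)
    have h1 := congrFun (congrFun hz (Sum.inl ⟨1, hd1⟩)) (Sum.inl ⟨1, hd1⟩)
    rw [hxd, Matrix.diagonal_apply_eq, Matrix.smul_apply, Matrix.one_apply_eq, smul_eq_mul,
      mul_one, Sum.elim_inl] at h0 h1
    have hu0 : u ⟨0, hd0⟩ = -1 := by
      rw [hu]
      simp
    have hu1 : u ⟨1, hd1⟩ = 1 := by
      rw [hu]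
      simp [Fin.ext_iff]
    rw [hu0] at h0
    rw [hu1] at h1
    apply h2
    have : (1 : F) = -1 := h1.trans h0.symm
    linear_combination this
  · have hsub : x - 1 = Matrix.diagonal (fun i => Sum.elim u u i - 1) := by
      rw [hxd, ← Matrix.diagonal_one, Matrix.diagonal_sub]
    rw [hsub, Matrix.rank_diagonal, Fintype.card_subtype]
    have hfilter : (Finset.univ.filter (fun i : Fin d ⊕ Fin d => Sum.elim u u i - 1 ≠ 0)) =
        {Sum.inl ⟨0, hd0⟩, Sum.inr ⟨0, hd0⟩} := by
      ext i
      simp only [Finset.mem_filter, Finset.mem_univ, true_and, Finset.mem_insert,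
        Finset.mem_singleton]
      have key : ∀ j : Fin d, u j - 1 ≠ 0 ↔ j = ⟨0, hd0⟩ := by
        intro j
        rw [hu]
        dsimp only
        split_ifs with hj
        · simp only [hj, iff_true]
          intro h
          apply h2
          linear_combination -h
        · simp [hj]
      rcases i with i | i
      · simp only [Sum.elim_inl, key, Sum.inl.injEq, reduceCtorEq, or_false]
      · simp only [Sum.elim_inr, key, Sum.inr.injEq, reduceCtorEq, false_or]
    rw [hfilter, Finset.card_pair]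
    simp

end Cfsg.Agent.Lib.Helper10.SpFINVELT
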