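import Mathlib
import Cfsg.Agent.Lib.Helper41.SpFStmt
import Cfsg.Agent.Lib.Helper40.SSConj

set_option autoImplicit false

namespace Cfsg.Agent.Lib.Helper10.SpFRK

open Matrix Polynomial
open Cfsg.Agent.Lib.Helper40.SympConj (sadj)

universe u

theorem main : Cfsg.Agent.Lib.Helper41.SpFStmt.Rk.{u} := by
  intro F _ d x N hN hxN a S hχ hS
  classical
  obtain ⟨φ, hφ⟩ : ∃ φ : Module.End F (Fin d ⊕ Fin d → F), φ = Matrix.toLin' x := ⟨_, rfl⟩
  have hs : φ.IsSemisimple := hφ ▸ Cfsg.Agent.Lib.Helper40.SSConj.isSemisimple_toLin' x N hN hxN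
  have hfs : φ.IsFinitelySemisimple := Module.End.isFinitelySemisimple_iff_isSemisimple.mpr hs
  have h1 : Module.finrank F (φ.maxGenEigenspace 1) = φ.charpoly.rootMultiplicity 1 :=
    LinearMap.finrank_maxGenEigenspace_eq φ 1
  rw [hfs.maxGenEigenspace_eq_eigenspace] at h1
  have hcp : φ.charpoly = (X - C 1) ^ a * S := by rw [hφ, Matrix.charpoly_toLin', hχ]
  have hS0 : S ≠ 0 := by
    intro h
    apply hS
    rw [h, eval_zero]
  have hne : (X - C (1 : F)) ^ a * S ≠ 0 :=
    mul_ne_zero (pow_ne_zero _ (X_sub_C_ne_zero 1)) hS0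
  have hmult : φ.charpoly.rootMultiplicity 1 = a := by
    rw [hcp, Polynomial.rootMultiplicity_mul hne, Polynomial.rootMultiplicity_X_sub_C_pow,
      Polynomial.rootMultiplicity_eq_zero (p := S) (x := 1) hS, add_zero]
  have hker : φ.eigenspace 1 = LinearMap.ker (Matrix.toLin' (x - 1)) := by
    rw [Module.End.eigenspace_def, hφ, map_sub, Matrix.toLin'_one, one_smul]
    rfl
  have hrank : (x - 1).rank = Module.finrank F (LinearMap.range (Matrix.toLin' (x - 1))) := rfl
  have h2 := LinearMap.finrank_range_add_finrank_ker (Matrix.toLin' (x - 1))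
  rw [Module.finrank_fintype_fun_eq_card, Fintype.card_sum, Fintype.card_fin, ← hrank, ← hker, h1,
    hmult] at h2
  omega

end Cfsg.Agent.Lib.Helper10.SpFRK
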