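import Mathlib
import Cfsg.Agent.Lib.Helper41.SpFStmt
import Cfsg.Agent.Lib.Helper13.SympMat

set_option autoImplicit false

namespace Cfsg.Agent.Lib.Helper10.SpFTRANSV

open Matrix
open Cfsg.Agent.Lib.Helper40.SympConj (sadj)
open Cfsg.Agent.Lib.Helper13.SympMat

universe u

/-- A nonzero matrix has nonzero rank. -/
theorem rank_ne_zero_of_ne_zero {F : Type*} [Field F] {n : Type*} [Fintype n] [DecidableEq n]
    (A : Matrix n n F) (hA : A ≠ 0) : A.rank ≠ 0 := by
  intro h
  apply hA
  rw [Matrix.rank, Module.finrank_eq_zero_iff_of_free, Submodule.subsingleton_iff_eq_bot,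
    LinearMap.range_eq_bot] at h
  have h2 : Matrix.toLin' A = 0 := h
  have h3 : Matrix.toLin' A = Matrix.toLin' (0 : Matrix n n F) := by rw [h2, map_zero]
  exact Matrix.toLin'.injective h3

/-- A scalar matrix minus one never has rank one when the index type has at least two
elements. -/
theorem rank_scalar_sub_one_ne_one {F : Type*} [Field F] {n : Type*} [Fintype n] [DecidableEq n]
    (hn : 2 ≤ Fintype.card n) (z : F) :
    ((z • (1 : Matrix n n F)) - 1).rank ≠ 1 := by
  by_cases hz : z = 1
  · rw [hz, one_smul, sub_self, Matrix.rank_zero]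
    exact zero_ne_one
  · have hu : IsUnit ((z • (1 : Matrix n n F)) - 1) := by
      have h1 : (z • (1 : Matrix n n F)) - 1 = (z - 1) • (1 : Matrix n n F) := by
        rw [sub_smul, one_smul]
      rw [h1]
      refine ⟨⟨(z - 1) • 1, (z - 1)⁻¹ • 1, ?_, ?_⟩, rfl⟩
      · rw [Matrix.smul_mul, Matrix.one_mul, smul_smul, mul_inv_cancel₀ (sub_ne_zero.mpr hz),
          one_smul]
      · rw [Matrix.smul_mul, Matrix.one_mul, smul_smul, inv_mul_cancel₀ (sub_ne_zero.mpr hz),
          one_smul]
    rw [Matrix.rank_of_isUnit _ hu]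
    omega

theorem main : Cfsg.Agent.Lib.Helper41.SpFStmt.Transv.{u} := by
  intro F _ p _ _ d hd
  classical
  obtain ⟨v, hv⟩ : ∃ v : Fin d ⊕ Fin d → F, v = Pi.single (Sum.inl ⟨0, by omega⟩) 1 := ⟨_, rfl⟩
  have hv0 : v ≠ 0 := by
    intro h
    have h1 := congrFun h (Sum.inl ⟨0, by omega⟩)
    rw [hv] at h1
    simp at h1
  have hT0 : Cfsg.sympTransvection d v (0 : F) = 1 := by
    unfold Cfsg.sympTransvection
    rw [zero_smul, add_zero]
  have hpow : ∀ k : ℕ, Cfsg.sympTransvection d v (1 : F) ^ k =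
      Cfsg.sympTransvection d v (k : F) := by
    intro k
    induction k with
    | zero => rw [pow_zero, Nat.cast_zero, hT0]
    | succ k ih => rw [pow_succ, ih, transvection_mul, Nat.cast_succ]
  have hJv : Matrix.J (Fin d) F *ᵥ v ≠ 0 := by
    intro h
    apply hv0
    have h1 : (-Matrix.J (Fin d) F) *ᵥ (Matrix.J (Fin d) F *ᵥ v) = 0 := by
      rw [h, Matrix.mulVec_zero]
    rwa [Matrix.mulVec_mulVec, Cfsg.Agent.Lib.Helper40.SympConj.neg_J_mul_J,
      Matrix.one_mulVec] at h1
  have hsub : Cfsg.sympTransvection d v (1 : F) - 1 =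
      Matrix.vecMulVec v (Matrix.J (Fin d) F *ᵥ v) := by
    unfold Cfsg.sympTransvection
    rw [one_smul, add_sub_cancel_left]
  have hrank : (Cfsg.sympTransvection d v (1 : F) - 1).rank = 1 := by
    apply le_antisymm
    · rw [hsub]
      exact Matrix.rank_vecMulVec_le _ _
    · have hne : Cfsg.sympTransvection d v (1 : F) - 1 ≠ 0 := by
        rw [hsub]
        intro h
        apply hJv
        funext j
        have h1 := congrFun (congrFun h (Sum.inl ⟨0, by omega⟩)) j
        have hv1 : v (Sum.inl ⟨0, by omega⟩) = 1 := by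
          rw [hv]
          simp
        rw [Matrix.vecMulVec_apply, hv1, one_mul] at h1
        exact h1
      have := rank_ne_zero_of_ne_zero _ hne
      omega
  refine ⟨Cfsg.sympTransvection d v 1,
    (Cfsg.Agent.Lib.Helper40.SympConj.mem_symp_iff _).mp (transvection_mem d v 1), ?_, ?_, hrank⟩
  · rw [hpow, CharP.cast_eq_zero, hT0]
  · intro z hz
    have hcard : 2 ≤ Fintype.card (Fin d ⊕ Fin d) := by
      rw [Fintype.card_sum, Fintype.card_fin]
      omega
    apply rank_scalar_sub_one_ne_one hcard z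
    rw [← hz]
    exact hrank

end Cfsg.Agent.Lib.Helper10.SpFTRANSV
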