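import Mathlib
import Cfsg.Agent.Lib.Helper41.TMStmt
import Cfsg.Agent.Lib.Helper44.NegPairs

/-!
# S5987 / TSEVEN (call by helper41; helper10): `i` even; invariant totally singular subspaces of
finrank `i s` orthogonal to the fixed space, by induction on `s` from `FixND`, `Perp`, `OrthSum`,
`PairFind`.  (Port of `Helper13.TPTSEVEN` to the minus form.)
-/

set_option autoImplicit false

universe u

open scoped Matrix

namespace Cfsg.Agent.Lib.Helper10.TMTSEVEN

open Cfsg.Agent.Lib.Helper41.TMStmt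
open Cfsg.Agent.Lib.Helper45.OMiStmt (M Aniso FxM NDegM StabM)
open Cfsg.Agent.Lib.Helper41.TMTwoStmt (TSubM PlusM FixTSM)

section basics

variable {F : Type u} [Field F] {d : ℕ} {a₀ b₀ : F}

theorem polar_add_l (a c y : M d → F) :
    QuadraticMap.polar (Cfsg.quadFormMinus (d - 1) F a₀ b₀) (a + c) y =
      QuadraticMap.polar (Cfsg.quadFormMinus (d - 1) F a₀ b₀) a y +
        QuadraticMap.polar (Cfsg.quadFormMinus (d - 1) F a₀ b₀) c y :=
  QuadraticMap.polar_add_left (Cfsg.Agent.Lib.Helper44.NegPairs.minusQ (d - 1) F a₀ b₀) a c y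

theorem polar_zero_l (y : M d → F) :
    QuadraticMap.polar (Cfsg.quadFormMinus (d - 1) F a₀ b₀) 0 y = 0 :=
  QuadraticMap.polar_zero_left (Cfsg.Agent.Lib.Helper44.NegPairs.minusQ (d - 1) F a₀ b₀) y

theorem stab_sup {x : Matrix (M d) (M d) F} {A C : Submodule F (M d → F)} (hA : StabM x A)
    (hC : StabM x C) : StabM x (A ⊔ C) := by
  unfold StabM at *
  rw [Submodule.map_sup]
  exact sup_le_sup hA hC

theorem stab_Fx (x : Matrix (M d) (M d) F) : StabM x (FxM x) := by
  unfold StabM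
  rintro _ ⟨v, hv, rfl⟩
  have hv2 : v ∈ LinearMap.ker (Matrix.toLin' x - LinearMap.id) := hv
  rw [LinearMap.mem_ker, LinearMap.sub_apply, Matrix.toLin'_apply, LinearMap.id_apply,
    sub_eq_zero] at hv2
  rw [Matrix.toLin'_apply, hv2]
  exact hv

end basics

theorem main : FixND.{u} → Perp.{u} → OrthSum.{u} → PairFind.{u} → TsEven.{u} := by
  intro hFix hPerp hOS hPF F _ _ a₀ b₀ hab p _ _ d r _ hd1 hr2 hrp hev0 x hx hxr s
  obtain ⟨i, hi⟩ : ∃ i, i = orderOf ((Fintype.card F : ℕ) : ZMod r) := ⟨_, rfl⟩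
  rw [← hi]
  have hFN := hFix F a₀ b₀ hab p d r hrp x hx hxr
  have key : ∀ s : ℕ, (s = 0 ∨ i * (2 * s + (r - 1) / i) +
        Module.finrank F ↥(FxM (x : Matrix (M d) (M d) F)) ≤ 2 * d + i) →
      ∃ U G : Submodule F (M d → F), U ≤ G ∧ StabM (x : Matrix (M d) (M d) F) U ∧ TSubM d F a₀ b₀ U ∧
        Module.finrank F ↥U = i * s ∧ StabM (x : Matrix (M d) (M d) F) G ∧ NDegM d F a₀ b₀ G ∧
        Module.finrank F ↥G = 2 * i * s ∧
        ∀ u ∈ G, ∀ v ∈ FxM (x : Matrix (M d) (M d) F),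
          QuadraticMap.polar (Cfsg.quadFormMinus (d - 1) F a₀ b₀) u v = 0 := by
    intro s
    induction s with
    | zero =>
      intro _
      have hS0 : StabM (x : Matrix (M d) (M d) F) (⊥ : Submodule F (M d → F)) := by
        unfold StabM
        rw [Submodule.map_bot]
      refine ⟨⊥, ⊥, le_rfl, hS0, ?_, ?_, hS0, ?_, ?_, ?_⟩
      · intro w hw
        rw [(Submodule.mem_bot F).mp hw]
        exact QuadraticMap.map_zero (Cfsg.Agent.Lib.Helper44.NegPairs.minusQ (d - 1) F a₀ b₀)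
      · rw [mul_zero]
        exact finrank_bot F (M d → F)
      · intro w hw hw0
        exact absurd ((Submodule.mem_bot F).mp hw) hw0
      · rw [mul_zero]
        exact finrank_bot F (M d → F)
      · intro u hu v _
        rw [(Submodule.mem_bot F).mp hu]
        exact polar_zero_l v
    | succ s ih =>
      intro hs
      have hs' : i * (2 * (s + 1) + (r - 1) / i) +
          Module.finrank F ↥(FxM (x : Matrix (M d) (M d) F)) ≤ 2 * d + i := by
        rcases hs with h | h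
        · exact absurd h (Nat.succ_ne_zero s)
        · exact h
      have hmono : i * (2 * s + (r - 1) / i) ≤ i * (2 * (s + 1) + (r - 1) / i) :=
        Nat.mul_le_mul_left _ (by omega)
      obtain ⟨U, G, hUG, hUS, hUT, hUd, hGS, hGN, hGd, hGperp⟩ := ih (Or.inr (by omega))
      obtain ⟨hZN, hGF, hZd⟩ := hOS F a₀ b₀ hab d G (FxM (x : Matrix (M d) (M d) F)) hGN hFN hGperp
      obtain ⟨Y, hZY, hYN, hZYbot, hdim, hYinv⟩ := hPerp F a₀ b₀ hab d hd1 _ hZN
      have hYS := hYinv x hx (stab_sup hGS (stab_Fx _))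
      have hYF : Y ⊓ FxM (x : Matrix (M d) (M d) F) = ⊥ := by
        apply le_bot_iff.mp
        rw [← hZYbot, inf_comm]
        exact inf_le_inf_right _ le_sup_right
      have e1 : i * (2 * (s + 1) + (r - 1) / i) = 2 * i * s + i * ((r - 1) / i + 1) + i := by
        ring
      have hYd : i * ((r - 1) / i + 1) ≤ Module.finrank F ↥Y := by
        rw [hZd, hGd] at hdim
        omega
      obtain ⟨U', G', hU'G', hG'Y, hU'S, hU'T, hU'd, hG'S, hG'N, hG'd⟩ :=
        hPF F a₀ b₀ hab p d r hr2 hrp hev0 x hx hxr Y hYS hYN hYF (by rw [← hi]; exact hYd)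
      have hGG' : ∀ u ∈ G, ∀ v ∈ G', QuadraticMap.polar (Cfsg.quadFormMinus (d - 1) F a₀ b₀) u v = 0 :=
        fun u hu v hv => hZY u (Submodule.mem_sup_left hu) v (hG'Y hv)
      obtain ⟨hG1N, hGG'bot, hG1d⟩ := hOS F a₀ b₀ hab d G G' hGN hG'N hGG'
      have hUU'bot : U ⊓ U' = ⊥ := by
        apply le_bot_iff.mp
        rw [← hGG'bot]
        exact inf_le_inf hUG hU'G'
      refine ⟨U ⊔ U', G ⊔ G', sup_le_sup hUG hU'G', stab_sup hUS hU'S, ?_, ?_,
        stab_sup hGS hG'S, hG1N, ?_, ?_⟩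
      · intro w hw
        obtain ⟨u, hu, u', hu', rfl⟩ := Submodule.mem_sup.mp hw
        have h1 := hUT u hu
        have h2 := hU'T u' hu'
        have h3 := hGG' u (hUG hu) u' (hU'G' hu')
        unfold QuadraticMap.polar at h3
        rw [h1, h2, sub_zero, sub_zero] at h3
        exact h3
      · have h := Submodule.finrank_sup_add_finrank_inf_eq U U'
        rw [hUU'bot, finrank_bot, add_zero, hUd, hU'd, ← hi] at h
        rw [h]
        ring
      · rw [hG1d, hGd, hG'd, ← hi]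
        ring
      · intro u hu v hv
        obtain ⟨g, hg, g', hg', rfl⟩ := Submodule.mem_sup.mp hu
        rw [polar_add_l, hGperp g hg v hv, zero_add, QuadraticMap.polar_comm]
        exact hZY v (Submodule.mem_sup_right hv) g' (hG'Y hg')
  intro hs
  obtain ⟨U, G, hUG, hUS, hUT, hUd, hGS, hGN, hGd, hGperp⟩ := key s hs
  refine ⟨U, hUS, hUT, hUd, ?_, fun u hu v hv => hGperp u (hUG hu) v hv⟩
  rw [Submodule.eq_bot_iff]
  rintro v ⟨hv1, hv2⟩
  by_contra hv0
  obtain ⟨⟨y, hy, hyv⟩, _⟩ := hFN v hv2 hv0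
  apply hyv
  rw [QuadraticMap.polar_comm]
  exact hGperp v (hUG hv1) y hy

end Cfsg.Agent.Lib.Helper10.TMTSEVEN
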